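import Mathlib

set_option autoImplicit false

namespace Cfsg.Agent.Lib.Helper47.UC

theorem pp_aux (n p₁ p₂ : ℕ) (h1 : p₁.Prime) (h2 : p₂.Prime) (hne : p₁ ≠ p₂) (hd1 : p₁ ∣ n) (hd2 : p₂ ∣ n) :
    ∀ r j : ℕ, r.Prime → n ^ 2 ≠ r ^ j := by
  intro r j hr h
  have a1 : p₁ ∣ r ^ j := h ▸ (hd1.trans (dvd_pow_self n two_ne_zero))
  have a2 : p₂ ∣ r ^ j := h ▸ (hd2.trans (dvd_pow_self n two_ne_zero))
  have b1 := (Nat.prime_dvd_prime_iff_eq h1 hr).1 (h1.dvd_of_dvd_pow a1)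
  have b2 := (Nat.prime_dvd_prime_iff_eq h2 hr).1 (h2.dvd_of_dvd_pow a2)
  exact hne (b1.trans b2.symm)

theorem pw_aux (n : ℕ) (h4 : 4 < n) (h16 : n < 16) (h8 : n ≠ 8) (h9 : n ≠ 9) :
    ∀ a k : ℕ, 2 ≤ k → n ≠ a ^ k := by
  intro a k hk h
  have ha2 : 2 ≤ a := by
    rcases a with _ | _ | a
    · rw [zero_pow (by omega)] at h; omega
    · simp at h; omega
    · omega
  have ha : a < 4 := by
    by_contra hc
    have h1 : 4 ^ 2 ≤ a ^ 2 := Nat.pow_le_pow_left (by omega) 2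
    have h2 : a ^ 2 ≤ a ^ k := Nat.pow_le_pow_right (by omega) hk
    omega
  have hk4 : k < 4 := by
    by_contra hc
    have h1 : 2 ^ 4 ≤ 2 ^ k := Nat.pow_le_pow_right (by omega) (by omega)
    have h2 : 2 ^ k ≤ a ^ k := Nat.pow_le_pow_left ha2 k
    omega
  interval_cases a <;> interval_cases k <;> omega

theorem mul_eq_ten (t m : ℕ) (h : t * m = 10) (ht : 2 ≤ t) :
    (t = 10 ∧ m = 1) ∨ (t = 5 ∧ m = 2) ∨ (t = 2 ∧ m = 5) := by
  have h1 : t ∣ 10 := ⟨m, h.symm⟩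
  have h2 : t ≤ 10 := Nat.le_of_dvd (by omega) h1
  interval_cases t <;> omega

theorem mul_eq_twelve (t m : ℕ) (h : t * m = 12) (ht : 2 ≤ t) :
    (t = 12 ∧ m = 1) ∨ (t = 6 ∧ m = 2) ∨ (t = 4 ∧ m = 3) ∨ (t = 3 ∧ m = 4) ∨ (t = 2 ∧ m = 6) := by
  have h1 : t ∣ 12 := ⟨m, h.symm⟩
  have h2 : t ≤ 12 := Nat.le_of_dvd (by omega) h1
  interval_cases t <;> omega

theorem odd_prime_dvd_ten (r : ℕ) (hr : r.Prime) (ho : Odd r) (hd : r ∣ 10) : r = 5 := by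
  have h2 : r ≤ 10 := Nat.le_of_dvd (by omega) hd
  interval_cases r <;> first | rfl | (exfalso; revert hr ho hd; decide)

theorem odd_prime_dvd_twelve (r : ℕ) (hr : r.Prime) (ho : Odd r) (hd : r ∣ 12) : r = 3 := by
  have h2 : r ≤ 12 := Nat.le_of_dvd (by omega) hd
  interval_cases r <;> first | rfl | (exfalso; revert hr ho hd; decide)

end Cfsg.Agent.Lib.Helper47.UC
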