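import Cfsg.Agent.Lib.Helper47.UC.Defs
import Cfsg.Agent.Lib.Helper80.AS.CEN
import Cfsg.Agent.Lib.Helper17.Herm

set_option autoImplicit false

namespace Cfsg.Agent.Lib.Helper47.UC

open Cfsg Cfsg.Geo
open Cfsg.Agent.Lib.Helper77.Asch (NormBy MinOver)
open Cfsg.Agent.Lib.Helper80.AS (env cen IsScal IsComm SelfAdj Projs tmat IsLeftFactor cen_mem_iff)
open Cfsg.Agent.Lib.Helper32.AschU (SUg IsTv gram)
open Cfsg.Agent.Lib.Helper17 (hermForm_conj hermForm_single_left pow_q_pow_q)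
open scoped MatrixGroups Matrix Kronecker

variable {n : ℕ} {F : Type*} [Field F]

-- RUNG CENAU
/-- CENAU (unitary copy of Helper80 CEN `cen_adj`). -/
theorem cen_adj_U [Fintype F] (q : ℕ) (hF : Fintype.card F = q ^ 2)
    (B : Subalgebra F (Matrix (Fin n) (Fin n) F)) (hadj : IsAdjointClosedFor (hermForm n F q) B) :
    IsAdjointClosedFor (hermForm n F q) (cen B) := by
  intro z hz
  obtain ⟨hzB, hzc⟩ := (cen_mem_iff B z).1 hz
  obtain ⟨z', hz'B, hz'⟩ := hadj z hzB
  refine ⟨z', ?_, hz'⟩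
  rw [cen_mem_iff]
  refine ⟨hz'B, fun y hy => ?_⟩
  obtain ⟨y', hy'B, hy'⟩ := hadj y hy
  -- `y` is the adjoint of `y'`
  have hyy : ∀ u v, hermForm n F q (y' *ᵥ u) v = hermForm n F q u (y *ᵥ v) := by
    intro u v
    rw [← hermForm_conj hF, ← hy', hermForm_conj hF]
  have hcomm := hzc y' hy'B
  -- compare
  have key : ∀ u v, hermForm n F q u ((y * z') *ᵥ v) = hermForm n F q u ((z' * y) *ᵥ v) := by
    intro u v
    have e1 : hermForm n F q ((z * y') *ᵥ u) v = hermForm n F q u ((y * z') *ᵥ v) := by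
      rw [← Matrix.mulVec_mulVec, hz', hyy, Matrix.mulVec_mulVec]
    have e2 : hermForm n F q ((y' * z) *ᵥ u) v = hermForm n F q u ((z' * y) *ᵥ v) := by
      rw [← Matrix.mulVec_mulVec, hyy, hz', Matrix.mulVec_mulVec]
    rw [← e1, ← e2, hcomm]
  have hv : ∀ v, (y * z') *ᵥ v = (z' * y) *ᵥ v := by
    intro v
    funext i
    have h1 := key (Pi.single i 1) v
    rw [hermForm_single_left, hermForm_single_left] at h1
    have h2 := congrArg (fun t => t ^ q) h1
    simpa only [pow_q_pow_q hF] using h2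
  ext i j
  have := congrFun (hv (Pi.single j 1)) i
  simpa using this

end Cfsg.Agent.Lib.Helper47.UC
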