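import Cfsg.Agent.Lib.Helper47.UC.Defs
import Cfsg.Agent.Lib.Helper32.AschU.DESC1

set_option autoImplicit false

namespace Cfsg.Agent.Lib.Helper47.UC

open Cfsg Cfsg.Geo
open Cfsg.Agent.Lib.Helper77.Asch (NormBy MinOver)
open Cfsg.Agent.Lib.Helper80.AS (env cen IsScal IsComm SelfAdj Projs tmat IsLeftFactor)
open Cfsg.Agent.Lib.Helper32.AschU (SUg IsTv gram)
open scoped MatrixGroups Matrix Kronecker

variable {n : ℕ} {F : Type*} [Field F]

-- RUNG DESC1S
/-- DESC1S (= Helper32/AschU/DESC1.lean with the polar form replaced by a symplectic form `b`). -/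
theorem desc1s [Fintype F] (q : ℕ) (hF : Fintype.card F = q ^ 2) (P₀ : Subgroup (GL (Fin n) F))
    (hPU : P₀ ≤ GU n F q) (b : (Fin n → F) → (Fin n → F) → F)
    (hb : IsSymplecticForm b) (hfix : FixesForm (matrixSet P₀) b) :
    ∃ M : GL (Fin n) F, ∀ x ∈ P₀, (x : Matrix (Fin n) (Fin n) F).map (· ^ q) * (M : Matrix (Fin n) (Fin n) F) =
      (M : Matrix (Fin n) (Fin n) F) * (x : Matrix (Fin n) (Fin n) F) := by
  obtain ⟨S, hS⟩ := Cfsg.Agent.Lib.Helper32.AschU.desc1_matrix _ hb.bilinear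
  have hdet : S.det ≠ 0 := by
    intro h0
    obtain ⟨v, hv, hSv⟩ := Matrix.exists_mulVec_eq_zero_iff.mpr h0
    obtain ⟨⟨x, hx⟩, -⟩ := hb.nondegenerate v hv
    apply hx
    rw [hS, hSv, dotProduct_zero]
  have hunit : IsUnit S := (Matrix.isUnit_iff_isUnit_det S).mpr (isUnit_iff_ne_zero.mpr hdet)
  obtain ⟨M, hM⟩ := hunit
  refine ⟨M, ?_⟩
  intro x hx
  rw [hM]
  have h1 : (x : Matrix (Fin n) (Fin n) F)ᵀ * S * (x : Matrix (Fin n) (Fin n) F) = S := by
    apply Cfsg.Agent.Lib.Helper32.AschU.desc1_ext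
    intro u v
    have e := hfix (x : Matrix (Fin n) (Fin n) F) ⟨x, hx, rfl⟩ u v
    rw [hS, hS, Cfsg.Agent.Lib.Helper32.AschU.desc1_adj, Matrix.mulVec_mulVec,
      Matrix.mulVec_mulVec] at e
    exact e
  have h2 := Cfsg.Agent.Lib.Helper17.GU_transpose_mul_map hF (hPU hx)
  have h3 : (Cfsg.Agent.Lib.Helper17.frobQ hF).mapMatrix (x : Matrix (Fin n) (Fin n) F) =
      (x : Matrix (Fin n) (Fin n) F).map (· ^ q) := by
    ext i j
    rfl
  rw [h3] at h2
  have h4 : (x : Matrix (Fin n) (Fin n) F).map (· ^ q) * (x : Matrix (Fin n) (Fin n) F)ᵀ = 1 :=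
    mul_eq_one_comm.mp h2
  calc (x : Matrix (Fin n) (Fin n) F).map (· ^ q) * S
      = (x : Matrix (Fin n) (Fin n) F).map (· ^ q) *
        ((x : Matrix (Fin n) (Fin n) F)ᵀ * S * (x : Matrix (Fin n) (Fin n) F)) := by rw [h1]
    _ = ((x : Matrix (Fin n) (Fin n) F).map (· ^ q) * (x : Matrix (Fin n) (Fin n) F)ᵀ) * S *
        (x : Matrix (Fin n) (Fin n) F) := by simp only [mul_assoc]
    _ = S * (x : Matrix (Fin n) (Fin n) F) := by rw [h4, one_mul]

end Cfsg.Agent.Lib.Helper47.UC
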