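import Mathlib
import Cfsg.Prelude.Def_GeometricClasses
import Cfsg.Agent.Lib.Helper77.Asch.Defs
import Cfsg.Agent.Lib.Helper80.AS.Defs
import Cfsg.Agent.Lib.Helper32.AschU.Defs

/-! Ladder ASCHCU: Aschbacher's theorem for SU_n(q), n = 10, 12 (composite, no prime power, no perfect power): definitions. -/

set_option autoImplicit false

namespace Cfsg.Agent.Lib.Helper47.UC

open Cfsg Cfsg.Geo
open scoped MatrixGroups Matrix Kronecker

variable {n : ℕ} {F : Type*} [Field F]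

/-- `H` lies in a member of one of the unitary geometric classes (composite dimension: no C6, no C7). -/
def InGeoV [Fintype F] (q : ℕ) (H : Subgroup (GL (Fin n) F)) : Prop :=
  (∃ W : Submodule F (Fin n → F), W ≠ ⊥ ∧ IsTotallySingularFor (hermForm n F q) W ∧
      H ≤ subspaceStabilizer W) ∨
  (∃ W : Submodule F (Fin n → F), W ≠ ⊥ ∧ IsNondegenerateOn (hermForm n F q) W ∧
      2 * Module.finrank F W < n ∧ H ≤ subspaceStabilizer W) ∨
  (∃ (t m : ℕ) (D : Fin t → Submodule F (Fin n → F)), IsNondegenerateMDecomposition (hermForm n F q) m D ∧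
      H ≤ decompositionStabilizer D) ∨
  (∃ (m : ℕ) (D : Fin 2 → Submodule F (Fin n → F)), IsMDecomposition m D ∧
      (∀ i, IsTotallySingularFor (hermForm n F q) (D i)) ∧ H ≤ decompositionStabilizer D) ∨
  (∃ (r : ℕ) (K : Subalgebra F (Matrix (Fin n) (Fin n) F)), r.Prime ∧ Odd r ∧ IsFieldSubalgebra r K ∧
      IsAdjointClosedFor (hermForm n F q) K ∧ H ≤ subalgebraNormalizer K) ∨
  (∃ (s k : ℕ) (e : Fin n ≃ Fin s × Fin k) (P : GL (Fin n) F) (f₁ : (Fin s → F) → (Fin s → F) → F)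
      (f₂ : (Fin k → F) → (Fin k → F) → F), 2 ≤ s ∧ 2 ≤ k ∧ IsUnitaryFormPow q f₁ ∧ IsUnitaryFormPow q f₂ ∧
      IsTensorFormStructure (fun x : F => x ^ q) (hermForm n F q) f₁ f₂ e P ∧
      H ≤ tensorProductSubgroup s k e P) ∨
  (∃ (F₀ : Subfield F) (r : ℕ) (P : GL (Fin n) F), r.Prime ∧ Odd r ∧ Fintype.card F = Nat.card F₀ ^ r ∧
      IsFormRationalStructure (hermForm n F q) F₀ 1 P ∧ H ≤ subfieldSubgroup F₀ P) ∨
  (∃ (F₀ : Subfield F) (P : GL (Fin n) F) (ζ : F), Fintype.card F = Nat.card F₀ ^ 2 ∧ ζ ≠ 0 ∧ ζ + ζ ^ q = 0 ∧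
      IsFormRationalStructure (hermForm n F q) F₀ ζ P ∧
      (∀ u : Fin n → F, (∀ i, u i ∈ F₀) →
        hermForm n F q ((P : Matrix (Fin n) (Fin n) F) *ᵥ u) ((P : Matrix (Fin n) (Fin n) F) *ᵥ u) = 0) ∧
      H ≤ subfieldSubgroup F₀ P) ∨
  (Odd q ∧ ∃ (F₀ : Subfield F) (P : GL (Fin n) F), Fintype.card F = Nat.card F₀ ^ 2 ∧
      IsFormRationalStructure (hermForm n F q) F₀ 1 P ∧ H ≤ subfieldSubgroup F₀ P)

/-- the Gram matrix of `hermForm` in the basis `P e_(e.symm (a,b))`, indexed by `Fin s × Fin k`. -/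
def tgram (q : ℕ) {s k : ℕ} (e : Fin n ≃ Fin s × Fin k) (P : GL (Fin n) F) :
    Matrix (Fin s × Fin k) (Fin s × Fin k) F :=
  (Cfsg.Agent.Lib.Helper32.AschU.gram q P).submatrix e.symm e.symm

end Cfsg.Agent.Lib.Helper47.UC
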