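import Cfsg.Agent.Lib.Helper47.UC.Defs
import Cfsg.Agent.Lib.Helper17.Herm

set_option autoImplicit false

namespace Cfsg.Agent.Lib.Helper47.UC

open Cfsg Cfsg.Geo
open Cfsg.Agent.Lib.Helper77.Asch (NormBy MinOver)
open Cfsg.Agent.Lib.Helper80.AS (env cen IsScal IsComm SelfAdj Projs tmat IsLeftFactor)
open Cfsg.Agent.Lib.Helper32.AschU (SUg IsTv gram)
open Cfsg.Agent.Lib.Helper17 (hermForm_smul_left hermForm_smul_right hermForm_add_left
  hermForm_add_right pow_q_pow_q)
open scoped MatrixGroups Matrix Kronecker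

variable {n : ℕ} {F : Type*} [Field F]

-- RUNG ENVAU
/-- ENVAU (unitary copy of Helper80 ENVA). -/
theorem env_adj_U [Fintype F] (q : ℕ) (hF : Fintype.card F = q ^ 2) (N : Subgroup (GL (Fin n) F))
    (hN : N ≤ similarityGroup (hermForm n F q)) : IsAdjointClosedFor (hermForm n F q) (env N) := by
  intro k hk
  unfold env at hk ⊢
  induction hk using Algebra.adjoin_induction with
  | mem x hx =>
    obtain ⟨y, hy, rfl⟩ := hx
    obtain ⟨c, hc⟩ := hN hy
    refine ⟨((c : F) ^ q) • ((y⁻¹ : GL (Fin n) F) : Matrix (Fin n) (Fin n) F), ?_, ?_⟩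
    · apply Subalgebra.smul_mem
      apply Algebra.subset_adjoin
      exact ⟨y⁻¹, N.inv_mem hy, rfl⟩
    · intro u v
      have h1 : (y : Matrix (Fin n) (Fin n) F) *ᵥ
          (((y⁻¹ : GL (Fin n) F) : Matrix (Fin n) (Fin n) F) *ᵥ v) = v := by
        rw [Matrix.mulVec_mulVec, ← Units.val_mul, mul_inv_cancel, Units.val_one,
          Matrix.one_mulVec]
      have h2 := hc u (((y⁻¹ : GL (Fin n) F) : Matrix (Fin n) (Fin n) F) *ᵥ v)
      rw [h1] at h2
      show hermForm n F q ((y : Matrix (Fin n) (Fin n) F) *ᵥ u) v = _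
      rw [h2, Matrix.smul_mulVec, hermForm_smul_right, pow_q_pow_q hF]
  | algebraMap r =>
    refine ⟨algebraMap F (Matrix (Fin n) (Fin n) F) (r ^ q), Subalgebra.algebraMap_mem _ _, ?_⟩
    intro u v
    rw [Algebra.algebraMap_eq_smul_one, Algebra.algebraMap_eq_smul_one, Matrix.smul_mulVec,
      Matrix.smul_mulVec, Matrix.one_mulVec, Matrix.one_mulVec, hermForm_smul_left,
      hermForm_smul_right, pow_q_pow_q hF]
  | add x y _ _ hx hy =>
    obtain ⟨x', hx', hxa⟩ := hx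
    obtain ⟨y', hy', hya⟩ := hy
    refine ⟨x' + y', Subalgebra.add_mem _ hx' hy', ?_⟩
    intro u v
    rw [Matrix.add_mulVec, Matrix.add_mulVec, hermForm_add_left, hermForm_add_right hF, hxa, hya]
  | mul x y _ _ hx hy =>
    obtain ⟨x', hx', hxa⟩ := hx
    obtain ⟨y', hy', hya⟩ := hy
    refine ⟨y' * x', Subalgebra.mul_mem _ hy' hx', ?_⟩
    intro u v
    rw [← Matrix.mulVec_mulVec, ← Matrix.mulVec_mulVec, hxa, hya]

end Cfsg.Agent.Lib.Helper47.UC
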