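import Cfsg.Agent.Lib.Helper47.UC.Defs
import Cfsg.Agent.Lib.Helper32.AschU.GRAM
import Cfsg.Agent.Lib.Helper32.AschU.FR2A
import Cfsg.Agent.Lib.Helper32.AschU.FR2B
import Cfsg.Agent.Lib.Helper32.AschU.TVE

set_option autoImplicit false

namespace Cfsg.Agent.Lib.Helper47.UC

open Cfsg Cfsg.Geo
open Cfsg.Agent.Lib.Helper77.Asch (NormBy MinOver)
open Cfsg.Agent.Lib.Helper80.AS (env cen IsScal IsComm SelfAdj Projs tmat IsLeftFactor)
open Cfsg.Agent.Lib.Helper32.AschU (SUg IsTv gram)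
open Cfsg.Agent.Lib.Helper32.AschU
open scoped MatrixGroups Matrix Kronecker

variable {n : ℕ} {F : Type*} [Field F]

/-- `Jᵀ = c J`, `c² = 1` (first half of the proof of `fr2a`). -/
theorem fr2e_scalar [Fintype F] (q : ℕ) (hF : Fintype.card F = q ^ 2) (hn0 : 0 < n)
    (P₀ : Subgroup (GL (Fin n) F))
    (hP : ActsAbsolutelyIrreducibly (matrixSet P₀)) (hPU : P₀ ≤ GU n F q) (F₁ : Subfield F)
    (hc : Fintype.card F = Nat.card F₁ ^ 2) (B : GL (Fin n) F)
    (hB : ∀ s ∈ matrixSet P₀, ∀ i j,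
      ((B : Matrix (Fin n) (Fin n) F) * s * ((B⁻¹ : GL (Fin n) F) : Matrix (Fin n) (Fin n) F)) i j ∈ F₁) :
    ∃ c : F, (gram q B⁻¹)ᵀ = c • gram q B⁻¹ ∧ c * c = 1 := by
  have hJunit := gram_isUnit q hF B⁻¹
  set J := gram q B⁻¹ with hJ
  obtain ⟨Ji, hJ1, hJ2⟩ : ∃ Ji : Matrix (Fin n) (Fin n) F, Ji * J = 1 ∧ J * Ji = 1 := by
    obtain ⟨Ju, hJu⟩ := hJunit
    exact ⟨(↑(Ju⁻¹) : Matrix (Fin n) (Fin n) F), by rw [← hJu]; exact Ju.inv_mul,
      by rw [← hJu]; exact Ju.mul_inv⟩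
  obtain ⟨c, hcM⟩ := scalar_of_commutes_conj P₀ hP B (Ji * Jᵀ) (by
    intro x hx
    have h1 := fr2_inv q hF P₀ hPU F₁ hc B hB x hx
    rw [← hJ] at h1
    have h2 : ((B * x * B⁻¹ : GL (Fin n) F) : Matrix (Fin n) (Fin n) F)ᵀ * Jᵀ *
        ((B * x * B⁻¹ : GL (Fin n) F) : Matrix (Fin n) (Fin n) F) = Jᵀ := by
      have := congrArg Matrix.transpose h1
      rw [Matrix.transpose_mul, Matrix.transpose_mul, Matrix.transpose_transpose, ← mul_assoc] at this
      exact this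
    exact fr2_alg _ _ (((B * x * B⁻¹)⁻¹ : GL (Fin n) F) : Matrix (Fin n) (Fin n) F) J Jᵀ Ji h1 h2
      (B * x * B⁻¹).mul_inv hJ1 hJ2)
  have hJT : Jᵀ = c • J := by
    calc Jᵀ = (J * Ji) * Jᵀ := by rw [hJ2, one_mul]
      _ = J * (Ji * Jᵀ) := by rw [mul_assoc]
      _ = c • J := by rw [hcM, Matrix.mul_smul, mul_one]
  refine ⟨c, hJT, ?_⟩
  have h1 : J = (c * c) • J := by
    calc J = (Jᵀ)ᵀ := (Matrix.transpose_transpose J).symm
      _ = (c • J)ᵀ := by rw [hJT]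
      _ = c • Jᵀ := Matrix.transpose_smul c J
      _ = (c * c) • J := by rw [hJT, smul_smul]
  have h2 : (1 : Matrix (Fin n) (Fin n) F) = (c * c) • 1 := by
    calc (1 : Matrix (Fin n) (Fin n) F) = J * Ji := hJ2.symm
      _ = ((c * c) • J) * Ji := by rw [← h1]
      _ = (c * c) • 1 := by rw [Matrix.smul_mul, hJ2]
  have h3 := congrFun (congrFun h2 ⟨0, hn0⟩) ⟨0, hn0⟩
  simpa using h3.symm

/-- in characteristic 2 a symmetric invariant Gram matrix is alternating (middle of `fr2b`). -/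
theorem fr2e_alt [Fintype F] (q : ℕ) (hF : Fintype.card F = q ^ 2) (h2 : 2 ≤ n) (P₀ : Subgroup (GL (Fin n) F))
    (hP : ActsAbsolutelyIrreducibly (matrixSet P₀)) (hPU : P₀ ≤ GU n F q) (F₁ : Subfield F)
    (hc : Fintype.card F = Nat.card F₁ ^ 2) (B : GL (Fin n) F)
    (hB : ∀ s ∈ matrixSet P₀, ∀ i j,
      ((B : Matrix (Fin n) (Fin n) F) * s * ((B⁻¹ : GL (Fin n) F) : Matrix (Fin n) (Fin n) F)) i j ∈ F₁)
    (hsym : (gram q B⁻¹)ᵀ = gram q B⁻¹) (hq : ¬ Odd q) :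
    (2 : F) = 0 ∧ ∀ w : Fin n → F, fr2bB (gram q B⁻¹) w w = 0 := by
  obtain ⟨p, k, hp, hchar, hqp⟩ := Cfsg.Agent.Lib.Helper17.exists_char_pow hF
  have hp2 : p = 2 := by
    rw [Nat.not_odd_iff_even, hqp] at hq
    exact (Nat.Prime.even_iff hp).mp (Nat.even_pow.mp hq).1
  subst hp2
  refine ⟨CharTwo.two_eq_zero, ?_⟩
  set J := gram q B⁻¹ with hJ
  have hBi1 : ((B⁻¹ : GL (Fin n) F) : Matrix (Fin n) (Fin n) F) * (B : Matrix (Fin n) (Fin n) F) = 1 :=
    B.inv_mul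
  have hBi2 : (B : Matrix (Fin n) (Fin n) F) * ((B⁻¹ : GL (Fin n) F) : Matrix (Fin n) (Fin n) F) = 1 :=
    B.mul_inv
  -- a nonzero singular vector
  obtain ⟨v₀, hv₀, hv₀W⟩ : ∃ v₀ : Fin n → F, v₀ ≠ 0 ∧ v₀ ∈ fr2bW J hsym := by
    let e0 : Fin n → F := Pi.single ⟨0, by omega⟩ 1
    let e1 : Fin n → F := Pi.single ⟨1, by omega⟩ 1
    by_cases ha : fr2bB J e0 e0 = 0
    · refine ⟨e0, ?_, ha⟩
      intro h
      have := congrFun h ⟨0, by omega⟩
      simp [e0] at this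
    · obtain ⟨c, hc'⟩ := FiniteField.isSquare_of_char_two (ringChar.eq F 2)
        (fr2bB J e1 e1 / fr2bB J e0 e0)
      refine ⟨c • e0 + e1, ?_, ?_⟩
      · intro h
        have := congrFun h ⟨1, by omega⟩
        simp [e0, e1] at this
      · change fr2bB J (c • e0 + e1) (c • e0 + e1) = 0
        rw [(fr2b_bilin J).add_left, (fr2b_bilin J).add_right, (fr2b_bilin J).add_right,
          fr2b_symm hsym e1 (c • e0), (fr2b_bilin J).smul_left c e0 (c • e0),
          (fr2b_bilin J).smul_right c e0 e0]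
        have e : c * (c * fr2bB J e0 e0) = fr2bB J e1 e1 := by
          rw [← mul_assoc, ← hc', div_mul_cancel₀ _ ha]
        rw [e]
        have h4 : ∀ x y : F, x + y + (y + x) = 0 := by
          intro x y
          have : x + y + (y + x) = (x + y) + (x + y) := by ring
          rw [this, CharTwo.add_self_eq_zero]
        exact h4 _ _
  -- invariance
  have hirr := hP.1 ((fr2bW J hsym).comap (Matrix.toLin' (B : Matrix (Fin n) (Fin n) F))) (by
    rintro _ ⟨x, hx, rfl⟩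
    rintro _ ⟨v, hv, rfl⟩
    have hv' : fr2bB J ((B : Matrix (Fin n) (Fin n) F) *ᵥ v) ((B : Matrix (Fin n) (Fin n) F) *ᵥ v) = 0 := by
      have hv2 : (B : Matrix (Fin n) (Fin n) F) *ᵥ v ∈ fr2bW J hsym := by simpa using hv
      exact hv2
    have h1 := fr2_inv q hF P₀ hPU F₁ hc B hB x hx
    rw [← hJ] at h1
    have h3 : (B : Matrix (Fin n) (Fin n) F) *ᵥ ((x : Matrix (Fin n) (Fin n) F) *ᵥ v) =
        ((B * x * B⁻¹ : GL (Fin n) F) : Matrix (Fin n) (Fin n) F) *ᵥ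
          ((B : Matrix (Fin n) (Fin n) F) *ᵥ v) := by
      rw [Matrix.mulVec_mulVec, Matrix.mulVec_mulVec]
      congr 1
      rw [Units.val_mul, Units.val_mul, mul_assoc, hBi1, mul_one]
    change fr2bB J _ _ = 0
    simp only [Matrix.toLin'_apply]
    rw [h3, fr2b_inv h1, hv'])
  rcases hirr with hbot | htop
  · exfalso
    have hmem : ((B⁻¹ : GL (Fin n) F) : Matrix (Fin n) (Fin n) F) *ᵥ v₀ ∈
        (fr2bW J hsym).comap (Matrix.toLin' (B : Matrix (Fin n) (Fin n) F)) := by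
      rw [Submodule.mem_comap, Matrix.toLin'_apply, Matrix.mulVec_mulVec, hBi2, Matrix.one_mulVec]
      exact hv₀W
    rw [hbot, Submodule.mem_bot] at hmem
    apply hv₀
    have := congrArg (fun z => (B : Matrix (Fin n) (Fin n) F) *ᵥ z) hmem
    simpa [Matrix.mulVec_mulVec, hBi2] using this
  · intro w
    have hmem : ((B⁻¹ : GL (Fin n) F) : Matrix (Fin n) (Fin n) F) *ᵥ w ∈
        (fr2bW J hsym).comap (Matrix.toLin' (B : Matrix (Fin n) (Fin n) F)) := by
      rw [htop]; trivial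
    rw [Submodule.mem_comap, Matrix.toLin'_apply, Matrix.mulVec_mulVec, hBi2,
      Matrix.one_mulVec] at hmem
    exact hmem

/-- rationality of `ζ f` from rationality of `ζ J`. -/
theorem fr2e_rat [Fintype F] (q : ℕ) (hF : Fintype.card F = q ^ 2) (F₁ : Subfield F) (C : GL (Fin n) F)
    (ζ : F) (h : ∀ i j, ζ * gram q C i j ∈ F₁) : IsFormRationalStructure (hermForm n F q) F₁ ζ C := by
  intro u v hu hv
  rw [gram_apply q hF]
  unfold dotProduct Matrix.mulVec dotProduct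
  rw [Finset.mul_sum]
  apply Subfield.sum_mem
  intro i _
  rw [Finset.mul_sum, Finset.mul_sum]
  apply Subfield.sum_mem
  intro j _
  have : ζ * (u i * (gram q C i j * v j ^ q)) = u i * ((ζ * gram q C i j) * v j ^ q) := by ring
  rw [this]
  exact F₁.mul_mem (hu i) (F₁.mul_mem (h i j) (F₁.pow_mem (hv j) q))

-- RUNG FR2E
theorem fr2e [Fintype F] (q : ℕ) (hF : Fintype.card F = q ^ 2) (h2 : 2 ≤ n) (P₀ : Subgroup (GL (Fin n) F))
    (hP : ActsAbsolutelyIrreducibly (matrixSet P₀)) (hPU : P₀ ≤ GU n F q) (F₁ : Subfield F)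
    (hc : Fintype.card F = Nat.card F₁ ^ 2) (B : GL (Fin n) F)
    (hB : ∀ s ∈ matrixSet P₀, ∀ i j,
      ((B : Matrix (Fin n) (Fin n) F) * s * ((B⁻¹ : GL (Fin n) F) : Matrix (Fin n) (Fin n) F)) i j ∈ F₁) :
    (Odd q ∧ IsFormRationalStructure (hermForm n F q) F₁ 1 B⁻¹) ∨
    (∃ ζ : F, ζ ≠ 0 ∧ ζ + ζ ^ q = 0 ∧ IsFormRationalStructure (hermForm n F q) F₁ ζ B⁻¹ ∧
      ∀ u : Fin n → F, (∀ i, u i ∈ F₁) →
        hermForm n F q (((B⁻¹ : GL (Fin n) F) : Matrix (Fin n) (Fin n) F) *ᵥ u)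
          (((B⁻¹ : GL (Fin n) F) : Matrix (Fin n) (Fin n) F) *ᵥ u) = 0) := by
  have hq := fr2_card hF F₁ hc
  obtain ⟨c, hJT, hcc⟩ := fr2e_scalar q hF (by omega) P₀ hP hPU F₁ hc B hB
  have hherm := gram_herm q hF B⁻¹
  -- value of the form on rational vectors
  have hval : ∀ u : Fin n → F, (∀ i, u i ∈ F₁) →
      hermForm n F q (((B⁻¹ : GL (Fin n) F) : Matrix (Fin n) (Fin n) F) *ᵥ u)
        (((B⁻¹ : GL (Fin n) F) : Matrix (Fin n) (Fin n) F) *ᵥ u) = fr2bB (gram q B⁻¹) u u := by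
    intro u hu
    rw [gram_apply q hF]
    have : (fun j => u j ^ q) = u := funext fun j => fr2_pow_of_mem F₁ hq (hu j)
    rw [this]
    rfl
  by_cases hc1 : c = 1
  · have hsym : (gram q B⁻¹)ᵀ = gram q B⁻¹ := by rw [hJT, hc1, one_smul]
    have hent : ∀ i j, (1 : F) * gram q B⁻¹ i j ∈ F₁ := by
      intro i j
      rw [one_mul]
      apply fr2_mem_of_pow F₁ hq
      rw [hsym] at hherm
      have := congrFun (congrFun hherm i) j
      rw [Matrix.map_apply] at this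
      exact this.symm
    have hrat := fr2e_rat q hF F₁ B⁻¹ 1 hent
    by_cases hodd : Odd q
    · exact Or.inl ⟨hodd, hrat⟩
    · obtain ⟨h20, halt⟩ := fr2e_alt q hF h2 P₀ hP hPU F₁ hc B hB hsym hodd
      refine Or.inr ⟨1, one_ne_zero, ?_, hrat, fun u hu => ?_⟩
      · rw [one_pow, one_add_one_eq_two, h20]
      · rw [hval u hu, halt]
  · have hcm : c = -1 := by
      rcases mul_self_eq_one_iff.1 hcc with h | h
      · exact absurd h hc1
      · exact h
    have h20 : (2 : F) ≠ 0 := by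
      intro h
      apply hc1
      rw [hcm]
      have : (-1 : F) = 1 - 2 := by ring
      rw [this, h, sub_zero]
    have hskew : (gram q B⁻¹)ᵀ = - gram q B⁻¹ := by rw [hJT, hcm, neg_smul, one_smul]
    obtain ⟨ζ, hζ0, hζq⟩ := exists_skew (F := F) q hF
    refine Or.inr ⟨ζ, hζ0, by rw [hζq, add_neg_cancel], ?_, fun u hu => ?_⟩
    · apply fr2e_rat q hF
      intro i j
      apply fr2_mem_of_pow F₁ hq
      rw [hskew] at hherm
      have := congrFun (congrFun hherm i) j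
      rw [Matrix.map_apply, Matrix.neg_apply] at this
      rw [mul_pow, hζq, ← this]
      ring
    · rw [hval u hu]
      have h3 : fr2bB (gram q B⁻¹) u u = - fr2bB (gram q B⁻¹) u u := by
        conv_lhs => unfold fr2bB; rw [dotProduct_comm, fr2b_adj, hskew, Matrix.neg_mulVec,
          dotProduct_neg]
        rfl
      have h4 : (2 : F) * fr2bB (gram q B⁻¹) u u = 0 := by linear_combination h3
      exact (mul_eq_zero.1 h4).resolve_left h20

end Cfsg.Agent.Lib.Helper47.UC
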