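import Cfsg.Agent.Lib.Helper47.UC.Defs

set_option autoImplicit false

namespace Cfsg.Agent.Lib.Helper47.UC

open Cfsg Cfsg.Geo
open Cfsg.Agent.Lib.Helper77.Asch (NormBy MinOver)
open Cfsg.Agent.Lib.Helper80.AS (env cen IsScal IsComm SelfAdj Projs tmat IsLeftFactor)
open Cfsg.Agent.Lib.Helper32.AschU (SUg IsTv gram)
open scoped MatrixGroups Matrix Kronecker

variable {n : ℕ} {F : Type*} [Field F]

-- RUNG FSWAP
/-- FSWAP.  Same constant `c`.  For `x y : Fin k × Fin s → F` apply the hypothesis to `x ∘ Prod.swap`, `y ∘ Prod.swap` (`(x ∘ Prod.swap) ∘ e = x ∘ (e.trans (Equiv.prodComm _ _))`); in `formOfGram` reindex both sums by `Equiv.prodComm`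
(`Equiv.sum_comp`), `Matrix.kroneckerMap_apply`, `mul_comm`. -/
theorem form_swap (σ : F → F) (f : (Fin n → F) → (Fin n → F) → F) {s k : ℕ}
    (f₁ : (Fin s → F) → (Fin s → F) → F) (f₂ : (Fin k → F) → (Fin k → F) → F)
    (e : Fin n ≃ Fin s × Fin k) (P : GL (Fin n) F) (h : IsTensorFormStructure σ f f₁ f₂ e P) :
    IsTensorFormStructure σ f f₂ f₁ (e.trans (Equiv.prodComm _ _)) P := by
  obtain ⟨c, hc, h⟩ := h
  refine ⟨c, hc, fun x y => ?_⟩
  have hx : ∀ z : Fin k × Fin s → F,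
      z ∘ (e.trans (Equiv.prodComm (Fin s) (Fin k))) = (z ∘ Prod.swap) ∘ e := fun z => by
    funext i
    rfl
  rw [hx x, hx y, h]
  congr 1
  unfold formOfGram
  rw [← Equiv.sum_comp (Equiv.prodComm (Fin k) (Fin s))]
  refine Finset.sum_congr rfl fun a _ => ?_
  rw [← Equiv.sum_comp (Equiv.prodComm (Fin k) (Fin s))]
  refine Finset.sum_congr rfl fun b _ => ?_
  obtain ⟨a1, a2⟩ := a
  obtain ⟨b1, b2⟩ := b
  simp only [Equiv.prodComm_apply, Prod.swap_prod_mk, Function.comp, Matrix.kroneckerMap_apply]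
  rw [mul_comm (gramMatrix f₁ a2 b2)]

end Cfsg.Agent.Lib.Helper47.UC
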