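import Cfsg.Agent.Lib.Helper47.UC.Defs
import Cfsg.Agent.Lib.Helper32.AschU.PU1

set_option autoImplicit false

namespace Cfsg.Agent.Lib.Helper47.UC

open Cfsg Cfsg.Geo
open Cfsg.Agent.Lib.Helper77.Asch (NormBy MinOver)
open Cfsg.Agent.Lib.Helper80.AS (env cen IsScal IsComm SelfAdj Projs tmat IsLeftFactor)
open Cfsg.Agent.Lib.Helper32.AschU (SUg IsTv gram)
open scoped MatrixGroups Matrix Kronecker

variable {n : ℕ} {F : Type*} [Field F]

-- RUNG PDEC
theorem not_le_decomp_V [Fintype F] (q : ℕ) (hF : Fintype.card F = q ^ 2) (h2 : 2 ≤ n) {t m : ℕ} (hm : 2 ≤ m)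
    (D : Fin t → Submodule F (Fin n → F)) (hD : IsMDecomposition m D) :
    ¬ SUg n F q ≤ decompositionStabilizer D := by
  classical
  intro hle
  have hq2 : 2 ≤ q := Helper17.two_le_of_card_sq hF
  obtain ⟨a, ha0, ha⟩ := Helper32.AschU.exists_skew (F := F) q hF
  have hdisj : ∀ i j, i ≠ j → ∀ x, x ∈ D i → x ∈ D j → x = 0 := fun i j hij x h1 h2 =>
    Submodule.disjoint_def.1 (hD.indep.pairwiseDisjoint hij) x h1 h2
  have step1 : ∀ u : Fin n → F, u ≠ 0 → hermForm n F q u u = 0 → ∃ i, u ∈ D i := by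
    intro u hu0 hu
    obtain ⟨g, hgS, hg⟩ := Helper32.AschU.exists_tv q hF u hu a ha
    obtain ⟨σ, hσ⟩ := hle hgS
    let φ : (Fin n → F) →ₗ[F] F :=
      { toFun := fun v => hermForm n F q v u
        map_add' := fun x y => Helper17.hermForm_add_left q n x y u
        map_smul' := fun c x => by simpa using Helper17.hermForm_smul_left q n c x u }
    have hmem : ∀ i, ∀ v ∈ D i, (g : Matrix (Fin n) (Fin n) F) *ᵥ v ∈ D (σ i) := by
      intro i v hv
      rw [← hσ i]
      exact ⟨v, hv, by rw [Matrix.toLin'_apply]⟩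
    have hσi : ∀ i, σ i = i := by
      intro i
      by_contra hne
      have hker : LinearMap.ker (φ.domRestrict (D i)) ≠ ⊥ := by
        apply LinearMap.ker_ne_bot_of_finrank_lt
        rw [hD.finrank_eq i, Module.finrank_self]; omega
      obtain ⟨v, hv, hv0⟩ := Submodule.exists_mem_ne_zero_of_ne_bot hker
      have h1 : hermForm n F q (v : Fin n → F) u = 0 := hv
      have h2 := hmem i v v.2
      rw [hg, h1, mul_zero, zero_smul, add_zero] at h2
      exact hv0 (Subtype.ext (hdisj _ _ hne _ h2 v.2))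
    obtain ⟨i, v, hv, hvu⟩ : ∃ i, ∃ v ∈ D i, hermForm n F q v u ≠ 0 := by
      by_contra hcon
      push Not at hcon
      have h1 : iSup D ≤ LinearMap.ker φ := iSup_le (fun i v hv => hcon i v hv)
      rw [hD.iSup_eq_top] at h1
      obtain ⟨v, hv⟩ := Helper32.AschU.herm_nondeg q (by omega) u hu0
      exact hv (h1 (Submodule.mem_top : v ∈ ⊤))
    refine ⟨i, ?_⟩
    have h2 := hmem i v hv
    rw [hσi i, hg] at h2
    have h3 := ((D i).add_mem_iff_right hv).mp h2
    exact ((D i).smul_mem_iff (mul_ne_zero ha0 hvu)).mp h3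
  obtain ⟨u, hu0, hu⟩ := Helper32.AschU.exists_isotropic (F := F) q hF h2
  obtain ⟨i, hui⟩ := step1 u hu0 hu
  have hDi : D i ≠ ⊤ := by
    intro htop
    obtain ⟨j, hj⟩ : ∃ j : Fin t, j ≠ i := by
      have ht := hD.two_le
      by_cases hk : i = ⟨0, by omega⟩
      · exact ⟨⟨1, by omega⟩, by rw [hk]; simp [Fin.ext_iff]⟩
      · exact ⟨⟨0, by omega⟩, fun h => hk h.symm⟩
    have hbot : D j = ⊥ := by
      rw [eq_bot_iff]
      intro x hx
      exact hdisj j i hj x hx (by rw [htop]; trivial)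
    have := hD.finrank_eq j
    rw [hbot, finrank_bot] at this
    omega
  obtain ⟨u', hu', hu'i⟩ : ∃ u' : Fin n → F, hermForm n F q u' u' = 0 ∧ u' ∉ D i := by
    by_contra hcon
    push Not at hcon
    exact hDi (Helper32.AschU.pu1_span q hF h2 (D i) hcon)
  have hu'0 : u' ≠ 0 := by
    rintro rfl
    exact hu'i (D i).zero_mem
  obtain ⟨j, hu'j⟩ := step1 u' hu'0 hu'
  have hij : i ≠ j := by
    rintro rfl
    exact hu'i hu'j
  set β := hermForm n F q u u' with hβ
  have hβ' : hermForm n F q u' u = β ^ q := (Helper17.hermForm_conj hF n u u').symm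
  obtain ⟨c, hc0, hc⟩ : ∃ c : F, c ≠ 0 ∧ c ^ q * β + c * β ^ q = 0 := by
    by_cases hb : β = 0
    · refine ⟨1, one_ne_zero, ?_⟩
      rw [hb, zero_pow (by omega)]; ring
    · refine ⟨a * β, mul_ne_zero ha0 hb, ?_⟩
      rw [mul_pow, ha]; ring
  have hw : hermForm n F q (u + c • u') (u + c • u') = 0 := by
    rw [Helper17.hermForm_add_left, Helper17.hermForm_add_right hF, Helper17.hermForm_add_right hF,
      Helper17.hermForm_smul_left, Helper17.hermForm_smul_left, Helper17.hermForm_smul_right,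
      Helper17.hermForm_smul_right, hu, hu', hβ', ← hβ]
    linear_combination hc
  have hcu' : c • u' ∈ D j := (D j).smul_mem c hu'j
  have hw0 : u + c • u' ≠ 0 := by
    intro h
    have h1 : u = -(c • u') := eq_neg_of_add_eq_zero_left h
    exact hu0 (hdisj i j hij u hui (by rw [h1]; exact (D j).neg_mem hcu'))
  obtain ⟨k, hk⟩ := step1 _ hw0 hw
  by_cases hki : k = i
  · subst hki
    have h1 := ((D k).add_mem_iff_right hui).mp hk
    have h2 := hdisj k j hij _ h1 hcu'
    rcases smul_eq_zero.1 h2 with h | h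
    · exact hc0 h
    · exact hu'0 h
  · by_cases hkj : k = j
    · subst hkj
      have h1 := ((D k).add_mem_iff_left hcu').mp hk
      exact hu0 (hdisj i k hij u hui h1)
    · have h1 := hD.indep k
      have h2 : u + c • u' ∈ ⨆ (l) (_ : l ≠ k), D l :=
        Submodule.add_mem _ (le_iSup₂ (f := fun l (_ : l ≠ k) => D l) i (Ne.symm hki) hui)
          (le_iSup₂ (f := fun l (_ : l ≠ k) => D l) j (Ne.symm hkj) hcu')
      exact hw0 (Submodule.disjoint_def.1 h1 _ hk h2)

end Cfsg.Agent.Lib.Helper47.UC
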