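import Cfsg.Agent.Lib.Helper47.UC.Defs

set_option autoImplicit false

namespace Cfsg.Agent.Lib.Helper47.UC

open Cfsg Cfsg.Geo
open Cfsg.Agent.Lib.Helper77.Asch (NormBy MinOver)
open Cfsg.Agent.Lib.Helper80.AS (env cen IsScal IsComm SelfAdj Projs tmat IsLeftFactor)
open Cfsg.Agent.Lib.Helper32.AschU (SUg IsTv gram)
open scoped MatrixGroups Matrix Kronecker

variable {n : ℕ} {F : Type*} [Field F]

-- RUNG PFLD
theorem tv_not_mem_fieldNormalizer' (h3 : 3 ≤ n) (r : ℕ) (hr : 1 < r) (K : Subalgebra F (Matrix (Fin n) (Fin n) F))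
    (hK : IsFieldSubalgebra r K) (τ : GL (Fin n) F) (hτ : IsTv τ) : τ ∉ subalgebraNormalizer K := by
  classical
  intro hmem
  obtain ⟨hne, u, φ, hφu, hv⟩ := hτ
  set T : Matrix (Fin n) (Fin n) F := (τ : Matrix (Fin n) (Fin n) F) with hT
  set T' : Matrix (Fin n) (Fin n) F := ((τ⁻¹ : GL (Fin n) F) : Matrix (Fin n) (Fin n) F) with hT'
  have hT'T : T' * T = 1 := by rw [hT, hT', ← Units.val_mul, inv_mul_cancel, Units.val_one]
  have hdetT : T.det ≠ 0 := by
    have := congrArg Matrix.det hT'T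
    rw [Matrix.det_mul, Matrix.det_one] at this
    exact right_ne_zero_of_mul_eq_one this
  -- τ commutes with K
  have hcomm : ∀ k ∈ K, T * k = k * T := by
    intro k hk
    have hk' : T * k * T' ∈ K := (hmem k).1 hk
    set D : Matrix (Fin n) (Fin n) F := T * k * T' - k with hD
    have hDK : D ∈ K := K.sub_mem hk' hk
    have hDT : D * T = T * k - k * T := by
      rw [hD, sub_mul, mul_assoc, hT'T, mul_one]
    have hD0 : D = 0 := by
      by_contra hD0
      obtain ⟨y, _, hy⟩ := hK.inv D hDK hD0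
      have hker : LinearMap.ker ((φ.comp (Matrix.toLin' k)).prod φ) ≠ ⊥ := by
        apply LinearMap.ker_ne_bot_of_finrank_lt
        rw [Module.finrank_prod, Module.finrank_self, Module.finrank_fin_fun]
        omega
      obtain ⟨z, hz, hz0⟩ := (Submodule.ne_bot_iff _).1 hker
      rw [LinearMap.mem_ker, LinearMap.prod_apply, Prod.mk_eq_zero] at hz
      obtain ⟨hz1, hz2⟩ := hz
      change φ (Matrix.toLin' k z) = 0 at hz1
      change φ z = 0 at hz2
      rw [Matrix.toLin'_apply] at hz1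
      have hdet : (D * T).det = 0 := by
        rw [← Matrix.exists_mulVec_eq_zero_iff]
        refine ⟨z, hz0, ?_⟩
        rw [hDT, Matrix.sub_mulVec, ← Matrix.mulVec_mulVec, ← Matrix.mulVec_mulVec, hv, hv, hz1, hz2]
        simp
      rw [Matrix.det_mul] at hdet
      have hdD : D.det = 0 := (mul_eq_zero.1 hdet).resolve_right hdetT
      have := congrArg Matrix.det hy
      rw [Matrix.det_mul, hdD, zero_mul, Matrix.det_one] at this
      exact zero_ne_one this
    rw [hD0, zero_mul] at hDT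
    exact sub_eq_zero.1 hDT.symm
  have hone : (∀ v, T *ᵥ v = v) → False := by
    intro h
    apply hne
    apply Units.ext
    rw [Units.val_one]
    apply Matrix.toLin'.injective
    apply LinearMap.ext
    intro v
    rw [Matrix.toLin'_apply, Matrix.toLin'_one, LinearMap.id_apply]
    exact h v
  have hu0 : u ≠ 0 := by
    rintro rfl
    apply hone
    intro v
    rw [hv, smul_zero, add_zero]
  obtain ⟨v₀, hv₀⟩ : ∃ v₀, φ v₀ ≠ 0 := by
    by_contra hcon
    push Not at hcon
    apply hone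
    intro v
    rw [hv, hcon v, zero_smul, add_zero]
  have hscal : ∀ k ∈ K, ∃ c : F, k = c • (1 : Matrix (Fin n) (Fin n) F) := by
    intro k hk
    have h1 : T *ᵥ (k *ᵥ v₀) = k *ᵥ (T *ᵥ v₀) := by
      rw [Matrix.mulVec_mulVec, Matrix.mulVec_mulVec, hcomm k hk]
    rw [hv, hv, Matrix.mulVec_add, Matrix.mulVec_smul] at h1
    have h2 : φ (k *ᵥ v₀) • u = φ v₀ • (k *ᵥ u) := add_left_cancel h1
    set c : F := φ (k *ᵥ v₀) / φ v₀ with hc
    have h3 : k *ᵥ u = c • u := by
      have : φ (k *ᵥ v₀) = φ v₀ * c := by rw [hc]; field_simp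
      rw [this, mul_smul] at h2
      exact (smul_right_injective _ hv₀ h2).symm
    refine ⟨c, ?_⟩
    by_contra hne'
    have hD0 : k - c • (1 : Matrix (Fin n) (Fin n) F) ≠ 0 := sub_ne_zero.2 hne'
    have hDK : k - c • (1 : Matrix (Fin n) (Fin n) F) ∈ K := K.sub_mem hk (K.smul_mem K.one_mem c)
    obtain ⟨y, hyK, hy⟩ := hK.inv _ hDK hD0
    have hy' : y * (k - c • (1 : Matrix (Fin n) (Fin n) F)) = 1 := by rw [hK.comm y hyK _ hDK, hy]
    have h4 : (k - c • (1 : Matrix (Fin n) (Fin n) F)) *ᵥ u = 0 := by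
      rw [Matrix.sub_mulVec, h3, Matrix.smul_mulVec, Matrix.one_mulVec, sub_self]
    apply hu0
    calc u = (y * (k - c • (1 : Matrix (Fin n) (Fin n) F))) *ᵥ u := by rw [hy', Matrix.one_mulVec]
      _ = 0 := by rw [← Matrix.mulVec_mulVec, h4, Matrix.mulVec_zero]
  have hle : Module.finrank F K ≤ 1 := by
    apply finrank_le_one (1 : K)
    intro w
    obtain ⟨c, hc⟩ := hscal w w.2
    exact ⟨c, Subtype.ext (by rw [hc]; rfl)⟩
  rw [hK.finrank_eq] at hle
  omega

end Cfsg.Agent.Lib.Helper47.UC
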