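import Cfsg.Agent.Lib.Helper47.UC.Defs
import Cfsg.Agent.Lib.Helper32.AschU.PU1
import Cfsg.Agent.Lib.Helper32.AschU.TVS

set_option autoImplicit false

namespace Cfsg.Agent.Lib.Helper47.UC

open Cfsg Cfsg.Geo
open Cfsg.Agent.Lib.Helper77.Asch (NormBy MinOver)
open Cfsg.Agent.Lib.Helper80.AS (env cen IsScal IsComm SelfAdj Projs tmat IsLeftFactor)
open Cfsg.Agent.Lib.Helper32.AschU (SUg IsTv gram)
open scoped MatrixGroups Matrix Kronecker

variable {n : ℕ} {F : Type*} [Field F]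

theorem psub_iso [Fintype F] (q : ℕ) (hF : Fintype.card F = q ^ 2) (u v : Fin n → F) (γ : F)
    (hu : hermForm n F q u u = 0) (hv : hermForm n F q v v = 0) (huv : hermForm n F q u v = 0)
    (hvu : hermForm n F q v u = 0) : hermForm n F q (u + γ • v) (u + γ • v) = 0 := by
  rw [Helper17.hermForm_add_left, Helper17.hermForm_add_right hF, Helper17.hermForm_add_right hF,
    Helper17.hermForm_smul_left, Helper17.hermForm_smul_left, Helper17.hermForm_smul_right,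
    Helper17.hermForm_smul_right, hu, hv, huv, hvu]
  ring

-- RUNG PSUB
theorem not_le_subfield_V [Fintype F] (q : ℕ) (hF : Fintype.card F = q ^ 2) (h4 : 4 ≤ n) (F₀ : Subfield F)
    (h : F₀ ≠ ⊤) (P : GL (Fin n) F) : ¬ SUg n F q ≤ subfieldSubgroup F₀ P := by
  classical
  intro hle
  have hq2 : 2 ≤ q := Helper17.two_le_of_card_sq hF
  obtain ⟨a, ha0, ha⟩ := Helper32.AschU.exists_skew (F := F) q hF
  set Q : Matrix (Fin n) (Fin n) F := ((P⁻¹ : GL (Fin n) F) : Matrix (Fin n) (Fin n) F) with hQ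
  have hQinj : ∀ v : Fin n → F, Q *ᵥ v = 0 → v = 0 := by
    intro v hv
    have h1 : (P : Matrix (Fin n) (Fin n) F) *ᵥ (Q *ᵥ v) = v := by
      rw [Matrix.mulVec_mulVec, hQ, ← Units.val_mul, mul_inv_cancel, Units.val_one, Matrix.one_mulVec]
    rw [← h1, hv, Matrix.mulVec_zero]
  have step1 : ∀ u : Fin n → F, u ≠ 0 → hermForm n F q u u = 0 →
      ∃ (c : F) (w : Fin n → F), c ≠ 0 ∧ (∀ i, w i ∈ F₀) ∧ Q *ᵥ u = c • w := by
    intro u hu0 hu
    obtain ⟨g, hgS, hg⟩ := Helper32.AschU.exists_tv q hF u hu a ha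
    have hTv := Helper32.AschU.isTv_of_tv q hF u hu0 hu a ha0 g hg
    have hrat := Helper32.AschU.tv_rational F₀ P (by omega) g hTv (hle hgS)
    set ψ : Fin n → F := fun j => a * hermForm n F q ((P : Matrix (Fin n) (Fin n) F) *ᵥ Pi.single j 1) u with hψ
    have hM : ∀ i j, ((P⁻¹ * g * P : GL (Fin n) F) : Matrix (Fin n) (Fin n) F) i j
        = (Pi.single j 1 : Fin n → F) i + ψ j * (Q *ᵥ u) i := by
      intro i j
      have h1 : ((P⁻¹ * g * P : GL (Fin n) F) : Matrix (Fin n) (Fin n) F) *ᵥ Pi.single j 1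
          = Pi.single j 1 + ψ j • (Q *ᵥ u) := by
        rw [Units.val_mul, Units.val_mul, ← Matrix.mulVec_mulVec, ← Matrix.mulVec_mulVec, hg,
          Matrix.mulVec_add, Matrix.mulVec_smul, Matrix.mulVec_mulVec, ← Units.val_mul, inv_mul_cancel,
          Units.val_one, Matrix.one_mulVec]
      have h2 := congrFun h1 i
      rw [Matrix.mulVec_single_one] at h2
      simpa using h2
    obtain ⟨j, hj⟩ : ∃ j, ψ j ≠ 0 := by
      by_contra hcon
      push Not at hcon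
      apply hTv.1
      have h1 : (P⁻¹ * g * P : GL (Fin n) F) = 1 := by
        apply Units.ext
        ext i j
        rw [hM, hcon j, zero_mul, add_zero, Units.val_one, Matrix.one_apply, Pi.single_apply]
      calc g = P * (P⁻¹ * g * P) * P⁻¹ := by group
        _ = 1 := by rw [h1]; group
    refine ⟨(ψ j)⁻¹, ψ j • (Q *ᵥ u), inv_ne_zero hj, ?_, ?_⟩
    · intro i
      have h1 := hrat i j
      rw [hM] at h1
      have h2 : (Pi.single j 1 : Fin n → F) i ∈ F₀ := by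
        rw [Pi.single_apply]; split_ifs
        · exact F₀.one_mem
        · exact F₀.zero_mem
      have h3 := F₀.sub_mem h1 h2
      simpa using h3
    · rw [smul_smul, inv_mul_cancel₀ hj, one_smul]
  obtain ⟨lam, hlam⟩ := Helper17.exists_norm_eq hF (-1) (by simp) (by rw [Helper17.neg_pow_q hF, one_pow])
  set i0 : Fin n := ⟨0, by omega⟩ with hi0
  set i1 : Fin n := ⟨1, by omega⟩ with hi1
  set i2 : Fin n := ⟨2, by omega⟩ with hi2
  set i3 : Fin n := ⟨3, by omega⟩ with hi3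
  have n01 : i0 ≠ i1 := by simp [hi0, hi1, Fin.ext_iff]
  have n02 : i0 ≠ i2 := by simp [hi0, hi2, Fin.ext_iff]
  have n03 : i0 ≠ i3 := by simp [hi0, hi3, Fin.ext_iff]
  have n12 : i1 ≠ i2 := by simp [hi1, hi2, Fin.ext_iff]
  have n13 : i1 ≠ i3 := by simp [hi1, hi3, Fin.ext_iff]
  have n23 : i2 ≠ i3 := by simp [hi2, hi3, Fin.ext_iff]
  set u₁ : Fin n → F := Pi.single i0 1 + lam • Pi.single i1 1 with hu₁
  set u₂ : Fin n → F := Pi.single i2 1 + lam • Pi.single i3 1 with hu₂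
  have hu1 : hermForm n F q u₁ u₁ = 0 := Helper32.AschU.pu1_iso q i0 i1 lam n01 hlam
  have hu2 : hermForm n F q u₂ u₂ = 0 := Helper32.AschU.pu1_iso q i2 i3 lam n23 hlam
  have hz : (0 : F) ^ q = 0 := zero_pow (by omega)
  have h12 : hermForm n F q u₁ u₂ = 0 := by
    rw [hu₁, Helper17.hermForm_add_left, Helper17.hermForm_smul_left, Helper17.hermForm_single_left,
      Helper17.hermForm_single_left]
    simp [hu₂, Pi.single_eq_of_ne n02, Pi.single_eq_of_ne n03, Pi.single_eq_of_ne n12,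
      Pi.single_eq_of_ne n13, hz]
  have h21 : hermForm n F q u₂ u₁ = 0 := by
    rw [← Helper17.hermForm_conj hF, h12, hz]
  have e10 : u₁ i0 = 1 := by simp [hu₁, Pi.single_eq_of_ne n01]
  have e20 : u₂ i0 = 0 := by simp [hu₂, Pi.single_eq_of_ne n02, Pi.single_eq_of_ne n03]
  have e22 : u₂ i2 = 1 := by simp [hu₂, Pi.single_eq_of_ne n23]
  have hu10 : u₁ ≠ 0 := by
    intro h0
    rw [h0] at e10
    simp at e10
  have hu20 : u₂ ≠ 0 := by
    intro h0
    rw [h0] at e22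
    simp at e22
  obtain ⟨c₁, w₁, hc1, hw1, hq1⟩ := step1 u₁ hu10 hu1
  obtain ⟨c₂, w₂, hc2, hw2, hq2'⟩ := step1 u₂ hu20 hu2
  obtain ⟨β, hβ⟩ : ∃ β : F, β ∉ F₀ := by
    by_contra hcon
    push Not at hcon
    exact h (eq_top_iff.2 (fun x _ => hcon x))
  set γ : F := β * c₁ / c₂ with hγ
  have hx : hermForm n F q (u₁ + γ • u₂) (u₁ + γ • u₂) = 0 := psub_iso q hF u₁ u₂ γ hu1 hu2 h12 h21
  have hx0 : u₁ + γ • u₂ ≠ 0 := by
    intro h0
    have := congrFun h0 i0
    simp [e10, e20] at this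
  obtain ⟨c₃, w₃, hc3, hw3, hq3⟩ := step1 _ hx0 hx
  have hrel : ∀ i, w₁ i + β * w₂ i = (c₃ / c₁) * w₃ i := by
    intro i
    rw [Matrix.mulVec_add, Matrix.mulVec_smul, hq1, hq2'] at hq3
    have := congrFun hq3 i
    simp only [Pi.add_apply, Pi.smul_apply, smul_eq_mul, hγ] at this
    field_simp
    field_simp at this
    linear_combination this
  obtain ⟨i, j, hd⟩ : ∃ i j, w₁ i * w₂ j - w₁ j * w₂ i ≠ 0 := by
    by_contra hcon
    push Not at hcon
    have hw20 : w₂ ≠ 0 := by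
      intro h0
      rw [h0, smul_zero] at hq2'
      exact hu20 (hQinj _ hq2')
    obtain ⟨j, hj⟩ := Function.ne_iff.1 hw20
    have hj' : w₂ j ≠ 0 := hj
    obtain ⟨r, hr⟩ : ∃ r : F, w₁ = r • w₂ := by
      refine ⟨w₁ j / w₂ j, ?_⟩
      funext i
      have := hcon i j
      simp only [Pi.smul_apply, smul_eq_mul]
      field_simp
      linear_combination this
    have h2 : Q *ᵥ (u₁ - (c₁ * r / c₂) • u₂) = 0 := by
      rw [Matrix.mulVec_sub, Matrix.mulVec_smul, hq1, hq2', hr, smul_smul, smul_smul, sub_eq_zero]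
      congr 1
      field_simp
    have h3 := congrFun (hQinj _ h2) i0
    simp [e10, e20] at h3
  set c := c₃ / c₁ with hc
  have hA : c * (w₃ i * w₂ j - w₃ j * w₂ i) = w₁ i * w₂ j - w₁ j * w₂ i := by
    linear_combination (-w₂ j) * hrel i + w₂ i * hrel j
  have hB : c * (w₁ i * w₃ j - w₁ j * w₃ i) = β * (w₁ i * w₂ j - w₁ j * w₂ i) := by
    linear_combination (-w₁ i) * hrel j + w₁ j * hrel i
  have hAm : w₃ i * w₂ j - w₃ j * w₂ i ∈ F₀ :=
    F₀.sub_mem (F₀.mul_mem (hw3 i) (hw2 j)) (F₀.mul_mem (hw3 j) (hw2 i))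
  have hBm : w₁ i * w₃ j - w₁ j * w₃ i ∈ F₀ :=
    F₀.sub_mem (F₀.mul_mem (hw1 i) (hw3 j)) (F₀.mul_mem (hw1 j) (hw3 i))
  have hdm : w₁ i * w₂ j - w₁ j * w₂ i ∈ F₀ :=
    F₀.sub_mem (F₀.mul_mem (hw1 i) (hw2 j)) (F₀.mul_mem (hw1 j) (hw2 i))
  have hA0 : w₃ i * w₂ j - w₃ j * w₂ i ≠ 0 := by
    intro h0
    rw [h0, mul_zero] at hA
    exact hd hA.symm
  have hcm : c ∈ F₀ := by
    have : c = (w₁ i * w₂ j - w₁ j * w₂ i) / (w₃ i * w₂ j - w₃ j * w₂ i) := by
      rw [eq_div_iff hA0]; exact hA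
    rw [this]
    exact F₀.div_mem hdm hAm
  apply hβ
  have : β = c * (w₁ i * w₃ j - w₁ j * w₃ i) / (w₁ i * w₂ j - w₁ j * w₂ i) := by
    rw [eq_div_iff hd]; exact hB.symm
  rw [this]
  exact F₀.div_mem (F₀.mul_mem hcm hBm) hdm

end Cfsg.Agent.Lib.Helper47.UC
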