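import Cfsg.Agent.Lib.Helper47.UC.Defs
import Cfsg.Agent.Lib.Helper80.AS.TMEM
import Cfsg.Agent.Lib.Helper80.AS.TMUL

set_option autoImplicit false

namespace Cfsg.Agent.Lib.Helper47.UC

open Cfsg Cfsg.Geo
open Cfsg.Agent.Lib.Helper77.Asch (NormBy MinOver)
open Cfsg.Agent.Lib.Helper80.AS (env cen IsScal IsComm SelfAdj Projs tmat IsLeftFactor)
open Cfsg.Agent.Lib.Helper32.AschU (SUg IsTv gram)
open scoped MatrixGroups Matrix Kronecker

variable {n : ℕ} {F : Type*} [Field F]

/-- the pure tensor in coordinates. -/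
def ptenTp {s k : ℕ} (x : Fin s → F) (y : Fin k → F) : Fin s × Fin k → F := fun p => x p.1 * y p.2

theorem pten_kron {s k : ℕ} (A : Matrix (Fin s) (Fin s) F) (B : Matrix (Fin k) (Fin k) F)
    (x : Fin s → F) (y : Fin k → F) : (A ⊗ₖ B) *ᵥ ptenTp x y = ptenTp (A *ᵥ x) (B *ᵥ y) := by
  ext ⟨i, j⟩
  simp only [Matrix.mulVec, dotProduct, ptenTp, Fintype.sum_prod_type, Matrix.kroneckerMap_apply,
    Finset.sum_mul_sum]
  refine Finset.sum_congr rfl fun a _ => Finset.sum_congr rfl fun b _ => ?_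
  ring

/-- a linear form on a space of dimension at least 2 has a non-zero kernel vector. -/
theorem pten_ker {m : ℕ} (hm : 2 ≤ m) (ψ : (Fin m → F) → F)
    (hadd : ∀ y y', ψ (y + y') = ψ y + ψ y') (hsm : ∀ (c : F) y, ψ (c • y) = c * ψ y) :
    ∃ y, y ≠ 0 ∧ ψ y = 0 := by
  let i0 : Fin m := ⟨0, by omega⟩
  let i1 : Fin m := ⟨1, by omega⟩
  have h01 : i0 ≠ i1 := by
    intro h
    have := congrArg Fin.val h
    simp [i0, i1] at this
  by_cases h0 : ψ (Pi.single i0 1) = 0
  · refine ⟨Pi.single i0 1, ?_, h0⟩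
    intro h
    have := congrFun h i0
    simp at this
  · refine ⟨ψ (Pi.single i1 1) • Pi.single i0 1 + (-ψ (Pi.single i0 1)) • Pi.single i1 1, ?_, ?_⟩
    · intro h
      have := congrFun h i1
      simp [Pi.single_apply, h01.symm] at this
      exact h0 this
    · rw [hadd, hsm, hsm]
      ring

theorem pten_eig {s k : ℕ} (x x' : Fin s → F) (y y' : Fin k → F) (hx : x ≠ 0) (hy : y ≠ 0)
    (h : ptenTp x' y' = ptenTp x y) : (∃ c : F, x' = c • x) ∧ ∃ c : F, y' = c • y := by
  obtain ⟨i0, hi0⟩ : ∃ i, x i ≠ 0 := by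
    by_contra h'
    push Not at h'
    exact hx (funext h')
  obtain ⟨j0, hj0⟩ : ∃ j, y j ≠ 0 := by
    by_contra h'
    push Not at h'
    exact hy (funext h')
  have h' : ∀ i j, x' i * y' j = x i * y j := fun i j => congrFun h (i, j)
  have h00 : x' i0 * y' j0 ≠ 0 := by
    rw [h']
    exact mul_ne_zero hi0 hj0
  have hx0 : x' i0 ≠ 0 := left_ne_zero_of_mul h00
  have hy0 : y' j0 ≠ 0 := right_ne_zero_of_mul h00
  constructor
  · refine ⟨y j0 / y' j0, ?_⟩
    funext i
    have := h' i j0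
    rw [Pi.smul_apply, smul_eq_mul]
    field_simp
    linear_combination this
  · refine ⟨x i0 / x' i0, ?_⟩
    funext j
    have := h' i0 j
    rw [Pi.smul_apply, smul_eq_mul]
    field_simp
    linear_combination this

/-- a matrix for which every vector is an eigenvector is scalar. -/
theorem pten_scalar {m : ℕ} (hm : 2 ≤ m) (a : Matrix (Fin m) (Fin m) F)
    (h : ∀ x, x ≠ 0 → ∃ c : F, a *ᵥ x = c • x) : ∃ c : F, a = c • (1 : Matrix (Fin m) (Fin m) F) := by
  let i0 : Fin m := ⟨0, by omega⟩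
  have hne : ∀ j : Fin m, (Pi.single j 1 : Fin m → F) ≠ 0 := by
    intro j h
    have := congrFun h j
    simp at this
  obtain ⟨c0, hc0⟩ := h _ (hne i0)
  refine ⟨c0, ?_⟩
  have key : ∀ j : Fin m, a *ᵥ Pi.single j 1 = c0 • Pi.single j 1 := by
    intro j
    by_cases hj : j = i0
    · rw [hj]; exact hc0
    · obtain ⟨cj, hcj⟩ := h _ (hne j)
      have hs : (Pi.single i0 1 + Pi.single j 1 : Fin m → F) ≠ 0 := by
        intro h
        have := congrFun h j
        simp [Pi.single_apply, hj] at this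
      obtain ⟨μ, hμ⟩ := h _ hs
      rw [Matrix.mulVec_add, hc0, hcj] at hμ
      have e0 := congrFun hμ i0
      have e1 := congrFun hμ j
      have hj' : i0 ≠ j := fun h => hj h.symm
      simp [Pi.single_apply, hj, hj'] at e0 e1
      rw [hcj, e1, ← e0]
  ext i j
  have := congrFun (key j) i
  rw [Matrix.mulVec_single_one] at this
  rw [Matrix.smul_apply, Matrix.one_apply]
  simp only [Matrix.col_apply, Pi.smul_apply, Pi.single_apply] at this
  rw [this]

-- RUNG PTEN
/-- PTEN (a transvection is not a Kronecker product). -/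
theorem tv_not_mem_tensor {s k : ℕ} (hs : 2 ≤ s) (hk : 2 ≤ k) (e : Fin n ≃ Fin s × Fin k) (P : GL (Fin n) F)
    (τ : GL (Fin n) F) (hτ : IsTv τ) : τ ∉ tensorProductSubgroup s k e P := by
  intro hmem
  obtain ⟨a, b, hab⟩ := (Cfsg.Agent.Lib.Helper80.AS.mem_tensor_iff e P τ).1 hmem
  obtain ⟨hτ1, u, φ, hφu, hτv⟩ := hτ
  set A : Matrix (Fin s) (Fin s) F := (a : Matrix (Fin s) (Fin s) F) with hA
  set B : Matrix (Fin k) (Fin k) F := (b : Matrix (Fin k) (Fin k) F) with hB
  let L : (Fin s × Fin k → F) → (Fin n → F) := fun z => (P : Matrix (Fin n) (Fin n) F) *ᵥ (z ∘ e)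
  have hLadd : ∀ z z', L (z + z') = L z + L z' := by
    intro z z'
    simp only [L]
    rw [← Matrix.mulVec_add]
    rfl
  have hLsm : ∀ (c : F) z, L (c • z) = c • L z := by
    intro c z
    simp only [L]
    rw [← Matrix.mulVec_smul]
    rfl
  have hLinj : ∀ z z', L z = L z' → z = z' := by
    intro z z' h
    have h1 : ((P⁻¹ : GL (Fin n) F) : Matrix (Fin n) (Fin n) F) *ᵥ L z
        = ((P⁻¹ : GL (Fin n) F) : Matrix (Fin n) (Fin n) F) *ᵥ L z' := by rw [h]
    simp only [L] at h1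
    rw [Matrix.mulVec_mulVec, Matrix.mulVec_mulVec, Cfsg.Agent.Lib.Helper80.AS.tmul_inv_mul,
      Matrix.one_mulVec, Matrix.one_mulVec] at h1
    funext p
    have := congrFun h1 (e.symm p)
    simpa using this
  have hτL : ∀ z, L ((A ⊗ₖ B) *ᵥ z) = L z + φ (L z) • u := by
    intro z
    rw [← hτv, hab]
    exact (Cfsg.Agent.Lib.Helper80.AS.tmat_mulVec e P _ z).symm
  have hfix : ∀ x y, φ (L (ptenTp x y)) = 0 → ptenTp (A *ᵥ x) (B *ᵥ y) = ptenTp x y := by
    intro x y h
    apply hLinj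
    rw [← pten_kron, hτL, h, zero_smul, add_zero]
  have htpl : ∀ (x x' : Fin s → F) (y : Fin k → F), ptenTp (x + x') y = ptenTp x y + ptenTp x' y := by
    intro x x' y; ext p; simp [ptenTp, add_mul]
  have htpr : ∀ (x : Fin s → F) (y y' : Fin k → F), ptenTp x (y + y') = ptenTp x y + ptenTp x y' := by
    intro x y y'; ext p; simp [ptenTp, mul_add]
  have htpsl : ∀ (c : F) (x : Fin s → F) (y : Fin k → F), ptenTp (c • x) y = c • ptenTp x y := by
    intro c x y; ext p; simp [ptenTp, mul_assoc]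
  have htpsr : ∀ (c : F) (x : Fin s → F) (y : Fin k → F), ptenTp x (c • y) = c • ptenTp x y := by
    intro c x y; ext p; simp [ptenTp, mul_left_comm]
  obtain ⟨ca, hca⟩ := pten_scalar hs A (by
    intro x hx
    obtain ⟨y, hy, hy0⟩ := pten_ker hk (fun y => φ (L (ptenTp x y)))
      (by intro y y'; simp only [htpr, hLadd, map_add])
      (by intro c y; simp only [htpsr, hLsm, map_smul, smul_eq_mul])
    exact (pten_eig x _ y _ hx hy (hfix x y hy0)).1)
  obtain ⟨cb, hcb⟩ := pten_scalar hk B (by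
    intro y hy
    obtain ⟨x, hx, hx0⟩ := pten_ker hs (fun x => φ (L (ptenTp x y)))
      (by intro x x'; simp only [htpl, hLadd, map_add])
      (by intro c x; simp only [htpsl, hLsm, map_smul, smul_eq_mul])
    exact (pten_eig x _ y _ hx hy (hfix x y hx0)).2)
  have hX : A ⊗ₖ B = (ca * cb) • (1 : Matrix (Fin s × Fin k) (Fin s × Fin k) F) := by
    rw [hca, hcb, Matrix.smul_kronecker, Matrix.kronecker_smul, Matrix.one_kronecker_one, smul_smul]
  have hτc : (τ : Matrix (Fin n) (Fin n) F) = (ca * cb) • (1 : Matrix (Fin n) (Fin n) F) := by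
    rw [hab, hX, Cfsg.Agent.Lib.Helper80.AS.tmat_smul, Cfsg.Agent.Lib.Helper80.AS.tmat_one]
  apply hτ1
  apply Units.ext
  rw [Units.val_one]
  by_cases hu : u = 0
  · ext i j
    have := congrFun (hτv (Pi.single j 1)) i
    rw [hu, smul_zero, add_zero, Matrix.mulVec_single_one] at this
    simp only [Matrix.col_apply] at this
    rw [this, Matrix.one_apply, Pi.single_apply]
  · have h1 := hτv u
    rw [hφu, zero_smul, add_zero, hτc, Matrix.smul_mulVec, Matrix.one_mulVec] at h1
    have h2 : ca * cb = 1 := by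
      obtain ⟨i, hi⟩ : ∃ i, u i ≠ 0 := by
        by_contra h'
        push Not at h'
        exact hu (funext h')
      have := congrFun h1 i
      rw [Pi.smul_apply, smul_eq_mul] at this
      exact mul_right_cancel₀ hi (by rw [this, one_mul])
    rw [hτc, h2, one_smul]

end Cfsg.Agent.Lib.Helper47.UC
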