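import Cfsg.Agent.Lib.Helper47.UC.Defs
import Cfsg.Agent.Lib.Helper17.Herm
import Cfsg.Agent.Lib.Helper80.AS.DSUM

set_option autoImplicit false

namespace Cfsg.Agent.Lib.Helper47.UC

open Cfsg Cfsg.Geo
open Cfsg.Agent.Lib.Helper77.Asch (NormBy MinOver)
open Cfsg.Agent.Lib.Helper80.AS (env cen IsScal IsComm SelfAdj Projs tmat IsLeftFactor)
open Cfsg.Agent.Lib.Helper32.AschU (SUg IsTv gram)
open Cfsg.Agent.Lib.Helper17 (hermForm_add_left hermForm_add_right hermForm_smul_left
  hermForm_smul_right hermForm_conj)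
open scoped MatrixGroups Matrix Kronecker

variable {n : ℕ} {F : Type*} [Field F]

theorem q2b_sum_left (q : ℕ) {ι : Type*} (s : Finset ι) (c : ι → F) (z : ι → Fin n → F)
    (x : Fin n → F) :
    hermForm n F q (∑ j ∈ s, c j • z j) x = ∑ j ∈ s, c j * hermForm n F q (z j) x := by
  classical
  induction s using Finset.induction_on with
  | empty => simp [hermForm]
  | insert a s ha ih =>
    rw [Finset.sum_insert ha, Finset.sum_insert ha, hermForm_add_left, hermForm_smul_left, ih]

theorem q2b_exists_ne [Fintype F] (hF : Fintype.card F = 2 ^ 2) (s : F) : ∃ a : F, a ≠ 0 ∧ a ≠ s := by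
  classical
  by_contra hcon
  push Not at hcon
  have hsub : (Finset.univ : Finset F) ⊆ {0, s} := by
    intro a _
    by_cases ha : a = 0
    · simp [ha]
    · simp [hcon a ha]
  have h1 := Finset.card_le_card hsub
  have h2 : ({0, s} : Finset F).card ≤ 2 := Finset.card_le_two
  rw [Finset.card_univ, hF] at h1
  omega

theorem q2b_add_self [Fintype F] (hF : Fintype.card F = 2 ^ 2) (a : F) : a + a = 0 := by
  have hchar : ringChar F = 2 := FiniteField.even_card_iff_char_two.2 (by rw [hF]; norm_num)
  have : CharP F 2 := ringChar.of_eq hchar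
  exact CharTwo.add_self_eq_zero a

theorem q2b_cube [Fintype F] (hF : Fintype.card F = 2 ^ 2) {a : F} (ha : a ≠ 0) : a ^ 3 = 1 := by
  have := FiniteField.pow_card_sub_one_eq_one a ha
  rwa [hF] at this

/-- the value `f x x` is `0` or `1` -/
theorem q2b_norm_one [Fintype F] (hF : Fintype.card F = 2 ^ 2) (x : Fin n → F)
    (hx : hermForm n F 2 x x ≠ 0) : hermForm n F 2 x x = 1 := by
  have h := hermForm_conj hF n x x
  have h1 : hermForm n F 2 x x * (hermForm n F 2 x x - 1) = 0 := by
    linear_combination h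
  rcases mul_eq_zero.1 h1 with h2 | h2
  · exact absurd h2 hx
  · exact sub_eq_zero.1 h2

/-- the non-degenerate unitary plane over `F₄` -/
theorem q2b_core [Fintype F] (hF : Fintype.card F = 2 ^ 2) (D : Submodule F (Fin n → F))
    (hfr : Module.finrank F D = 2) (hnd : IsNondegenerateOn (hermForm n F 2) D) :
    ∃ v ∈ D, ∃ w ∈ D, hermForm n F 2 v v ≠ 0 ∧ hermForm n F 2 w w ≠ 0 ∧ hermForm n F 2 v w = 0 ∧
      hermForm n F 2 w v = 0 ∧
      ∀ x ∈ D, hermForm n F 2 x x ≠ 0 → (∃ a : F, x = a • v) ∨ (∃ b : F, x = b • w) := by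
  classical
  have hDne : D ≠ ⊥ := by
    rintro rfl
    simp at hfr
  -- a non-isotropic vector
  have h1 : ∃ v ∈ D, hermForm n F 2 v v ≠ 0 := by
    by_contra hcon
    push Not at hcon
    obtain ⟨x0, hx0, hne⟩ := Submodule.exists_mem_ne_zero_of_ne_bot hDne
    obtain ⟨y, hy, hyx⟩ := (hnd x0 hx0 hne).1
    obtain ⟨a, ha0, has⟩ := q2b_exists_ne hF (hermForm n F 2 y x0)
    have h2 := hcon (y + a • x0) (D.add_mem hy (D.smul_mem a hx0))
    rw [hermForm_add_left, hermForm_add_right hF, hermForm_add_right hF, hermForm_smul_left,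
      hermForm_smul_left, hermForm_smul_right, hermForm_smul_right, hcon y hy, hcon x0 hx0,
      ← hermForm_conj hF n y x0] at h2
    have h3 : a * hermForm n F 2 y x0 * (a + hermForm n F 2 y x0) = 0 := by
      linear_combination h2
    rcases mul_eq_zero.1 h3 with h4 | h4
    · rcases mul_eq_zero.1 h4 with h5 | h5
      · exact ha0 h5
      · exact hyx h5
    · apply has
      have h5 := q2b_add_self hF (hermForm n F 2 y x0)
      linear_combination h4 - h5
  obtain ⟨v, hv, hvv⟩ := h1
  have hv0 : v ≠ 0 := by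
    rintro rfl
    apply hvv
    simp [hermForm]
  -- a vector outside the line
  have hlt : Submodule.span F {v} < D := by
    refine lt_of_le_of_ne ((Submodule.span_singleton_le_iff_mem v D).2 hv) ?_
    intro h
    have h2 := finrank_span_singleton (K := F) hv0
    rw [h, hfr] at h2
    omega
  obtain ⟨y, hy, hyv⟩ := SetLike.exists_of_lt hlt
  set c : F := hermForm n F 2 y v / hermForm n F 2 v v with hc
  set w : Fin n → F := y - c • v with hw
  have hwD : w ∈ D := D.sub_mem hy (D.smul_mem c hv)
  have hwv : hermForm n F 2 w v = 0 := by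
    rw [hw, Cfsg.Agent.Lib.Helper17.hermForm_sub_left, hermForm_smul_left, hc]
    field_simp
    ring
  have hvw : hermForm n F 2 v w = 0 := by
    rw [← hermForm_conj hF n w v, hwv]; norm_num
  have hw0 : w ≠ 0 := by
    intro h
    apply hyv
    rw [Submodule.mem_span_singleton]
    exact ⟨c, (sub_eq_zero.1 h).symm⟩
  -- `v, w` span `D`
  have hli : LinearIndependent F ![v, w] := by
    rw [LinearIndependent.pair_iff]
    intro s t hst
    have h2 := congrArg (fun x => hermForm n F 2 x v) hst
    simp only [hermForm_add_left, hermForm_smul_left, hwv, mul_zero, add_zero] at h2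
    have h3 : hermForm n F 2 (0 : Fin n → F) v = 0 := by simp [hermForm]
    rw [h3] at h2
    have hs : s = 0 := (mul_eq_zero.1 h2).resolve_right hvv
    rw [hs, zero_smul, zero_add] at hst
    exact ⟨hs, (smul_eq_zero.1 hst).resolve_right hw0⟩
  have hspan : Submodule.span F {v, w} = D := by
    apply Submodule.eq_of_le_of_finrank_eq
    · rw [Submodule.span_le]
      intro x hx
      rcases hx with rfl | hx
      · exact hv
      · rw [Set.mem_singleton_iff] at hx; rw [hx]; exact hwD
    · have h2 := finrank_span_eq_card hli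
      have h3 : Set.range ![v, w] = {v, w} := by
        simp [Matrix.range_cons, Matrix.range_empty, Set.pair_comm]
      rw [h3] at h2
      rw [h2, hfr]; rfl
  have hrep : ∀ x ∈ D, ∃ a b : F, a • v + b • w = x := by
    intro x hx
    rw [← hspan] at hx
    exact Submodule.mem_span_pair.1 hx
  have hww : hermForm n F 2 w w ≠ 0 := by
    obtain ⟨x, hx, hxw⟩ := (hnd w hwD hw0).1
    obtain ⟨a, b, rfl⟩ := hrep x hx
    rw [hermForm_add_left, hermForm_smul_left, hermForm_smul_left, hvw, mul_zero, zero_add] at hxw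
    exact right_ne_zero_of_mul hxw
  refine ⟨v, hv, w, hwD, hvv, hww, hvw, hwv, ?_⟩
  intro x hx hxx
  obtain ⟨a, b, rfl⟩ := hrep x hx
  by_cases ha : a = 0
  · right
    exact ⟨b, by rw [ha, zero_smul, zero_add]⟩
  · by_cases hb : b = 0
    · left
      exact ⟨a, by rw [hb, zero_smul, add_zero]⟩
    · exfalso
      apply hxx
      rw [hermForm_add_left, hermForm_add_right hF, hermForm_add_right hF, hermForm_smul_left,
        hermForm_smul_left, hermForm_smul_left, hermForm_smul_left, hermForm_smul_right,
        hermForm_smul_right, hermForm_smul_right, hermForm_smul_right, hvw, hwv,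
        q2b_norm_one hF v hvv, q2b_norm_one hF w hww]
      have h3 := q2b_cube hF ha
      have h4 := q2b_cube hF hb
      have h5 := q2b_add_self hF (1 : F)
      linear_combination h3 + h4 + h5

-- RUNG Q2B
/-- Q2B (`GU₂(2)` is monomial). -/
theorem q2_blocks [Fintype F] (hF : Fintype.card F = 2 ^ 2) {t : ℕ} (D : Fin t → Submodule F (Fin n → F))
    (hD : IsNondegenerateMDecomposition (hermForm n F 2) 2 D) :
    ∃ D' : Fin n → Submodule F (Fin n → F), IsNondegenerateMDecomposition (hermForm n F 2) 1 D' ∧
      decompositionStabilizer D ⊓ GU n F 2 ≤ decompositionStabilizer D' := by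
  classical
  have hcore := fun i => q2b_core hF (D i) (hD.decomp.finrank_eq i) (hD.nondegenerate i)
  choose v hv w hw hvv hww hvw hwv hiso using hcore
  let u : Fin t × Fin 2 → (Fin n → F) := fun p => if p.2 = 0 then v p.1 else w p.1
  have huD : ∀ p, u p ∈ D p.1 := by
    intro p
    by_cases h : p.2 = 0
    · simp only [u, if_pos h]; exact hv p.1
    · simp only [u, if_neg h]; exact hw p.1
  have huu : ∀ p, hermForm n F 2 (u p) (u p) ≠ 0 := by
    intro p
    by_cases h : p.2 = 0
    · simp only [u, if_pos h]; exact hvv p.1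
    · simp only [u, if_neg h]; exact hww p.1
  have horth : ∀ p p', p ≠ p' → hermForm n F 2 (u p) (u p') = 0 := by
    intro p p' hne
    by_cases h1 : p.1 = p'.1
    · have h2 : p.2 ≠ p'.2 := fun h => hne (Prod.ext h1 h)
      by_cases h : p.2 = 0
      · have h' : p'.2 ≠ 0 := fun h3 => h2 (h.trans h3.symm)
        simp only [u, if_pos h, if_neg h', h1]; exact hvw p'.1
      · have h' : p'.2 = 0 := by
          have := p.2.isLt
          have := p'.2.isLt
          have h3 : (p.2 : ℕ) ≠ 0 := fun h4 => h (Fin.ext h4)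
          have h5 : (p.2 : ℕ) ≠ (p'.2 : ℕ) := fun h4 => h2 (Fin.ext h4)
          apply Fin.ext
          simp only [Fin.val_zero]
          omega
        simp only [u, if_neg h, if_pos h', h1]; exact hwv p'.1
    · exact hD.orthogonal p.1 p'.1 h1 _ (huD p) _ (huD p')
  have hcard : t * 2 = n := by
    have := Cfsg.Agent.Lib.Helper80.AS.decomp_card D hD.decomp
    simpa using this
  let ε : Fin n ≃ Fin t × Fin 2 :=
    (Fintype.equivFinOfCardEq (α := Fin t × Fin 2) (by simp [hcard])).symm
  let z : Fin n → (Fin n → F) := fun j => u (ε j)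
  have hzz : ∀ j, hermForm n F 2 (z j) (z j) ≠ 0 := fun j => huu _
  have hzo : ∀ j j', j ≠ j' → hermForm n F 2 (z j) (z j') = 0 := fun j j' h =>
    horth _ _ (fun h' => h (ε.injective h'))
  have hz0 : ∀ j, z j ≠ 0 := by
    intro j h
    apply hzz j
    rw [h]; simp [hermForm]
  have hli : LinearIndependent F z := by
    rw [Fintype.linearIndependent_iff]
    intro c hc k
    have h1 := congrArg (fun x => hermForm n F 2 x (z k)) hc
    simp only [q2b_sum_left] at h1
    rw [Finset.sum_eq_single k] at h1
    · have h3 : hermForm n F 2 (0 : Fin n → F) (z k) = 0 := by simp [hermForm]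
      rw [h3] at h1
      exact (mul_eq_zero.1 h1).resolve_right (hzz k)
    · intro j _ hj
      rw [hzo j k hj, mul_zero]
    · intro h; exact absurd (Finset.mem_univ k) h
  refine ⟨fun j => Submodule.span F {z j}, ⟨⟨?_, one_pos, ?_, ?_, ?_⟩, ?_, ?_⟩, ?_⟩
  · have := hD.decomp.two_le
    omega
  · intro j
    exact finrank_span_singleton (hz0 j)
  · exact hli.iSupIndep_span_singleton
  · rw [← Submodule.span_range_eq_iSup]
    have hne : Nonempty (Fin n) := ⟨⟨0, by have := hD.decomp.two_le; omega⟩⟩
    exact hli.span_eq_top_of_card_eq_finrank (by simp)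
  · intro j x hx hx0
    obtain ⟨c, rfl⟩ := Submodule.mem_span_singleton.1 hx
    have hc : c ≠ 0 := by
      rintro rfl
      exact hx0 (zero_smul _ _)
    refine ⟨⟨z j, Submodule.mem_span_singleton_self _, ?_⟩, ⟨z j, Submodule.mem_span_singleton_self _, ?_⟩⟩
    · rw [hermForm_smul_right]
      exact mul_ne_zero (pow_ne_zero _ hc) (hzz j)
    · rw [hermForm_smul_left]
      exact mul_ne_zero hc (hzz j)
  · intro j j' hne x hx y hy
    obtain ⟨a, rfl⟩ := Submodule.mem_span_singleton.1 hx
    obtain ⟨b, rfl⟩ := Submodule.mem_span_singleton.1 hy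
    rw [hermForm_smul_left, hermForm_smul_right, hzo j j' hne, mul_zero, mul_zero]
  · intro g hg
    obtain ⟨σ, hσ⟩ := hg.1
    have hgU : ∀ x y, hermForm n F 2 ((g : Matrix (Fin n) (Fin n) F) *ᵥ x)
        ((g : Matrix (Fin n) (Fin n) F) *ᵥ y) = hermForm n F 2 x y := hg.2
    have hginj : Function.Injective (Matrix.toLin' (g : Matrix (Fin n) (Fin n) F)) := by
      intro x y hxy
      have h1 := congrArg (fun x => ((g⁻¹ : GL (Fin n) F) : Matrix (Fin n) (Fin n) F) *ᵥ x) hxy
      simp only [Matrix.toLin'_apply, Matrix.mulVec_mulVec, ← Units.val_mul, inv_mul_cancel,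
        Units.val_one, Matrix.one_mulVec] at h1
      exact h1
    have key : ∀ j, ∃ j', (Submodule.span F {z j}).map (Matrix.toLin' (g : Matrix (Fin n) (Fin n) F)) =
        Submodule.span F {z j'} := by
      intro j
      have h1 : (g : Matrix (Fin n) (Fin n) F) *ᵥ z j ∈ D (σ (ε j).1) := by
        rw [← hσ]
        exact ⟨z j, huD _, rfl⟩
      have h2 : hermForm n F 2 ((g : Matrix (Fin n) (Fin n) F) *ᵥ z j)
          ((g : Matrix (Fin n) (Fin n) F) *ᵥ z j) ≠ 0 := by
        rw [hgU]; exact hzz j
      have hmap : (Submodule.span F {z j}).map (Matrix.toLin' (g : Matrix (Fin n) (Fin n) F)) =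
          Submodule.span F {(g : Matrix (Fin n) (Fin n) F) *ᵥ z j} := by
        rw [Submodule.map_span, Set.image_singleton, Matrix.toLin'_apply]
      have hfin : ∀ (a : F) (p : Fin t × Fin 2), (g : Matrix (Fin n) (Fin n) F) *ᵥ z j = a • u p →
          ∃ j', (Submodule.span F {z j}).map (Matrix.toLin' (g : Matrix (Fin n) (Fin n) F)) =
            Submodule.span F {z j'} := by
        intro a p hap
        have ha : a ≠ 0 := by
          rintro rfl
          apply h2
          rw [hap, zero_smul]; simp [hermForm]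
        refine ⟨ε.symm p, ?_⟩
        rw [hmap, hap]
        simp only [z, Equiv.apply_symm_apply]
        exact Submodule.span_singleton_smul_eq (isUnit_iff_ne_zero.2 ha) _
      rcases hiso _ _ h1 h2 with ⟨a, ha⟩ | ⟨b, hb⟩
      · exact hfin a (σ (ε j).1, 0) (by simpa [u] using ha)
      · exact hfin b (σ (ε j).1, 1) (by simpa [u] using hb)
    choose π hπ using key
    have hπinj : Function.Injective π := by
      intro j₁ j₂ h
      by_contra hne
      have h1 : (Submodule.span F {z j₁}).map (Matrix.toLin' (g : Matrix (Fin n) (Fin n) F)) =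
          (Submodule.span F {z j₂}).map (Matrix.toLin' (g : Matrix (Fin n) (Fin n) F)) := by
        rw [hπ, hπ, h]
      have h2 := Submodule.map_injective_of_injective hginj h1
      have h3 : z j₁ ∈ Submodule.span F {z j₂} := h2 ▸ Submodule.mem_span_singleton_self _
      obtain ⟨c, hc⟩ := Submodule.mem_span_singleton.1 h3
      apply hzz j₁
      have h4 : hermForm n F 2 (z j₁) (z j₁) = c * hermForm n F 2 (z j₂) (z j₁) := by
        conv_lhs => rw [← hc, hermForm_smul_left, hc]
      rw [h4, hzo j₂ j₁ (fun h5 => hne h5.symm), mul_zero]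
    exact ⟨Equiv.ofBijective π (Finite.injective_iff_bijective.1 hπinj), hπ⟩

end Cfsg.Agent.Lib.Helper47.UC
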