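import Cfsg.Agent.Lib.Helper47.UC.Defs
import Cfsg.Agent.Lib.Helper80.AS.TMEM
import Cfsg.Agent.Lib.Helper80.AS.TMUL
import Cfsg.Agent.Lib.Helper17.TensorForm
import Cfsg.Agent.Lib.Helper17.Herm
import Cfsg.Agent.Lib.Helper71.UCQ2Core

set_option autoImplicit false

namespace Cfsg.Agent.Lib.Helper47.UC

open Cfsg Cfsg.Geo
open Cfsg.Agent.Lib.Helper77.Asch (NormBy MinOver)
open Cfsg.Agent.Lib.Helper80.AS (env cen IsScal IsComm SelfAdj Projs tmat IsLeftFactor)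
open Cfsg.Agent.Lib.Helper32.AschU (SUg IsTv gram)
open Cfsg.Agent.Lib.Helper17.TensorForm (tp Lmap)
open scoped MatrixGroups Matrix Kronecker

variable {n : ℕ} {F : Type*} [Field F]

/-- `y ↦ P (u ⊗ y)`. -/
noncomputable def q2tL {k : ℕ} (e : Fin n ≃ Fin 2 × Fin k) (P : GL (Fin n) F) (u : Fin 2 → F) :
    (Fin k → F) →ₗ[F] (Fin n → F) :=
  (Lmap e P).toLinearMap ∘ₗ
    { toFun := fun y => tp u y
      map_add' := Cfsg.Agent.Lib.Helper17.TensorForm.tp_add_right u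
      map_smul' := fun c y => Cfsg.Agent.Lib.Helper17.TensorForm.tp_smul_right c u y }

theorem q2tL_apply {k : ℕ} (e : Fin n ≃ Fin 2 × Fin k) (P : GL (Fin n) F) (u : Fin 2 → F)
    (y : Fin k → F) : q2tL e P u y = (P : Matrix (Fin n) (Fin n) F) *ᵥ (tp u y ∘ e) := by
  rw [← Cfsg.Agent.Lib.Helper17.TensorForm.Lmap_apply]
  rfl

theorem q2t_gram [Fintype F] (hF : Fintype.card F = 2 ^ 2) {m : ℕ}
    (f : (Fin m → F) → (Fin m → F) → F) (h : IsUnitaryFormPow 2 f) (x y : Fin m → F) :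
    formOfGram (fun x : F => x ^ 2) (gramMatrix f) x y = f x y := by
  refine Cfsg.Agent.Lib.Helper17.TensorForm.formOfGram_gram _ f h.add_left h.smul_left ?_ ?_ x y
  · intro v x y
    rw [h.herm v (x + y), h.add_left, Cfsg.Agent.Lib.Helper71.UCQ2.f4_add_sq hF, ← h.herm, ← h.herm]
  · intro c v x
    rw [h.herm v (c • x), h.smul_left, mul_pow, ← h.herm]

theorem q2t_form [Fintype F] (hF : Fintype.card F = 2 ^ 2) {k : ℕ} (e : Fin n ≃ Fin 2 × Fin k)
    (P : GL (Fin n) F) (f₁ : (Fin 2 → F) → (Fin 2 → F) → F) (f₂ : (Fin k → F) → (Fin k → F) → F)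
    (h1 : IsUnitaryFormPow 2 f₁) (h2 : IsUnitaryFormPow 2 f₂) (c : F)
    (hc : ∀ x y : Fin 2 × Fin k → F,
      hermForm n F 2 ((P : Matrix (Fin n) (Fin n) F) *ᵥ (x ∘ e)) ((P : Matrix (Fin n) (Fin n) F) *ᵥ (y ∘ e)) =
        c * formOfGram (fun x : F => x ^ 2) (gramMatrix f₁ ⊗ₖ gramMatrix f₂) x y)
    (u u' : Fin 2 → F) (y y' : Fin k → F) :
    hermForm n F 2 (q2tL e P u y) (q2tL e P u' y') = c * (f₁ u u' * f₂ y y') := by
  rw [q2tL_apply, q2tL_apply, hc,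
    Cfsg.Agent.Lib.Helper17.TensorForm.formOfGram_tp _ (fun a b => mul_pow a b 2),
    q2t_gram hF f₁ h1, q2t_gram hF f₂ h2]

-- RUNG Q2T
/-- Q2T (`GU₂(2) ⊗ GU_k(2)` is imprimitive). -/
theorem q2_tensor [Fintype F] (hF : Fintype.card F = 2 ^ 2) {k : ℕ} (hk : 0 < k)
    (e : Fin n ≃ Fin 2 × Fin k) (P : GL (Fin n) F)
    (f₁ : (Fin 2 → F) → (Fin 2 → F) → F) (f₂ : (Fin k → F) → (Fin k → F) → F)
    (h1 : IsUnitaryFormPow 2 f₁) (h2 : IsUnitaryFormPow 2 f₂)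
    (hT : IsTensorFormStructure (fun x : F => x ^ 2) (hermForm n F 2) f₁ f₂ e P) :
    ∃ D : Fin 2 → Submodule F (Fin n → F), IsNondegenerateMDecomposition (hermForm n F 2) k D ∧
      tensorProductSubgroup 2 k e P ⊓ GU n F 2 ≤ decompositionStabilizer D := by
  obtain ⟨c, hc0, hc⟩ := hT
  obtain ⟨v0, v1, h00, h11, h01, h10, hspan, hiso⟩ :=
    Cfsg.Agent.Lib.Helper71.UCQ2.core hF (V := Fin 2 → F) (by simp) f₁ h1.add_left h1.smul_left h1.herm
      (fun v hv => (h1.nondegenerate v hv).1)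
  obtain ⟨v, hv0, hv1⟩ : ∃ v : Fin 2 → (Fin 2 → F), v 0 = v0 ∧ v 1 = v1 := ⟨![v0, v1], rfl, rfl⟩
  have hvv : ∀ i j, f₁ (v i) (v j) = if i = j then 1 else 0 := by
    intro i j
    fin_cases i <;> fin_cases j <;> simp [hv0, hv1, h00, h11, h01, h10]
  have hform := q2t_form hF e P f₁ f₂ h1 h2 c hc
  obtain ⟨D, hD⟩ : ∃ D : Fin 2 → Submodule F (Fin n → F), D = fun i => LinearMap.range (q2tL e P (v i)) :=
    ⟨_, rfl⟩
  have hmem : ∀ i z, z ∈ D i ↔ ∃ y, q2tL e P (v i) y = z := by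
    intro i z
    rw [hD]
    exact LinearMap.mem_range
  have hz : ∀ w : Fin n → F, hermForm n F 2 w 0 = 0 := by
    intro w
    simp [hermForm]
  have hinj : ∀ i, Function.Injective (q2tL e P (v i)) := by
    intro i
    rw [← LinearMap.ker_eq_bot, LinearMap.ker_eq_bot']
    intro y hy
    by_contra hy0
    obtain ⟨x, hx⟩ := (h2.nondegenerate y hy0).1
    have h := hform (v i) (v i) x y
    rw [hy, hvv, if_pos rfl, hz, one_mul] at h
    exact mul_ne_zero hc0 hx h.symm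
  have hfin : ∀ i, Module.finrank F (D i) = k := by
    intro i
    rw [hD]
    change Module.finrank F (LinearMap.range (q2tL e P (v i))) = k
    rw [LinearMap.finrank_range_of_inj (hinj i)]
    simp
  have hnd : ∀ i, IsNondegenerateOn (hermForm n F 2) (D i) := by
    intro i z hzD hne
    obtain ⟨y, rfl⟩ := (hmem i z).1 hzD
    have hy0 : y ≠ 0 := by
      rintro rfl
      exact hne (map_zero _)
    obtain ⟨⟨x, hx⟩, ⟨x', hx'⟩⟩ := h2.nondegenerate y hy0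
    refine ⟨⟨_, (hmem i _).2 ⟨x, rfl⟩, ?_⟩, ⟨_, (hmem i _).2 ⟨x', rfl⟩, ?_⟩⟩
    · rw [hform, hvv, if_pos rfl, one_mul]
      exact mul_ne_zero hc0 hx
    · rw [hform, hvv, if_pos rfl, one_mul]
      exact mul_ne_zero hc0 hx'
  have horth : ∀ i j, i ≠ j → AreOrthogonalFor (hermForm n F 2) (D i) (D j) := by
    intro i j hij z hzD z' hzD'
    obtain ⟨y, rfl⟩ := (hmem i z).1 hzD
    obtain ⟨y', rfl⟩ := (hmem j z').1 hzD'
    rw [hform, hvv, if_neg hij]
    ring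
  have htop : iSup D = ⊤ := by
    rw [eq_top_iff]
    intro z _
    obtain ⟨x, rfl⟩ := (Lmap e P).surjective z
    choose α β hαβ using fun b : Fin k => hspan (fun a => x (a, b))
    have hx : x = tp v0 α + tp v1 β := by
      ext ⟨a, b⟩
      have h := congrFun (hαβ b) a
      simp only [Pi.add_apply, Pi.smul_apply, smul_eq_mul] at h
      simp only [Pi.add_apply, Cfsg.Agent.Lib.Helper17.TensorForm.tp_apply]
      rw [h]
      ring
    rw [hx, map_add]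
    refine Submodule.add_mem _ (Submodule.mem_iSup_of_mem 0 ((hmem 0 _).2 ⟨α, ?_⟩))
      (Submodule.mem_iSup_of_mem 1 ((hmem 1 _).2 ⟨β, ?_⟩))
    · rw [hv0]; rfl
    · rw [hv1]; rfl
  have hind : iSupIndep D := by
    intro i
    rw [Submodule.disjoint_def]
    intro x hx hx'
    by_contra hx0
    obtain ⟨⟨w, hw, hwx⟩, _⟩ := hnd i x hx hx0
    apply hwx
    let O : Submodule F (Fin n → F) :=
      { carrier := {z | hermForm n F 2 w z = 0}
        add_mem' := by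
          intro a b ha hb
          change hermForm n F 2 w (a + b) = 0
          rw [Cfsg.Agent.Lib.Helper17.hermForm_add_right hF, ha, hb, add_zero]
        zero_mem' := hz w
        smul_mem' := by
          intro a b hb
          change hermForm n F 2 w (a • b) = 0
          rw [Cfsg.Agent.Lib.Helper17.hermForm_smul_right, hb, mul_zero] }
    have hle : (⨆ j, ⨆ (_ : j ≠ i), D j) ≤ O :=
      iSup₂_le (fun j hj z hzj => horth i j hj.symm w hw z hzj)
    exact hle hx'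
  refine ⟨D, ⟨⟨le_refl 2, hk, hfin, hind, htop⟩, hnd, horth⟩, ?_⟩
  rintro g ⟨hg1, hg2⟩
  obtain ⟨a, b, hab⟩ := (Cfsg.Agent.Lib.Helper80.AS.mem_tensor_iff e P g).1 hg1
  have hact : ∀ u y, (g : Matrix (Fin n) (Fin n) F) *ᵥ q2tL e P u y =
      q2tL e P ((a : Matrix (Fin 2) (Fin 2) F) *ᵥ u) ((b : Matrix (Fin k) (Fin k) F) *ᵥ y) := by
    intro u y
    rw [hab, q2tL_apply, Cfsg.Agent.Lib.Helper80.AS.tmat_mulVec,
      Cfsg.Agent.Lib.Helper17.TensorForm.kron_mulVec_tp, q2tL_apply]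
  have hpres : ∀ u u' y y', f₁ ((a : Matrix (Fin 2) (Fin 2) F) *ᵥ u) ((a : Matrix (Fin 2) (Fin 2) F) *ᵥ u') *
      f₂ ((b : Matrix (Fin k) (Fin k) F) *ᵥ y) ((b : Matrix (Fin k) (Fin k) F) *ᵥ y') = f₁ u u' * f₂ y y' := by
    intro u u' y y'
    have h := hg2 (q2tL e P u y) (q2tL e P u' y')
    change hermForm n F 2 ((g : Matrix (Fin n) (Fin n) F) *ᵥ _) ((g : Matrix (Fin n) (Fin n) F) *ᵥ _) = _ at h
    rw [hact, hact, hform, hform] at h
    exact mul_left_cancel₀ hc0 h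
  obtain ⟨y, y', hyy⟩ : ∃ y y', f₂ y y' ≠ 0 := by
    have hne : (Pi.single ⟨0, hk⟩ 1 : Fin k → F) ≠ 0 := by
      intro h
      have := congrFun h ⟨0, hk⟩
      simp at this
    obtain ⟨x, hx⟩ := (h2.nondegenerate _ hne).1
    exact ⟨x, _, hx⟩
  have hb : f₂ ((b : Matrix (Fin k) (Fin k) F) *ᵥ y) ((b : Matrix (Fin k) (Fin k) F) *ᵥ y') ≠ 0 := by
    intro h0
    have h := hpres v0 v0 y y'
    rw [h0, h00, mul_zero, one_mul] at h
    exact hyy h.symm
  have hniso : ∀ i, f₁ ((a : Matrix (Fin 2) (Fin 2) F) *ᵥ v i) ((a : Matrix (Fin 2) (Fin 2) F) *ᵥ v i) ≠ 0 := by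
    intro i h0
    have h := hpres (v i) (v i) y y'
    rw [h0, hvv, if_pos rfl, zero_mul, one_mul] at h
    exact hyy h.symm
  have hex : ∀ i, ∃ j, ∃ α : F, (a : Matrix (Fin 2) (Fin 2) F) *ᵥ v i = α • v j := by
    intro i
    rcases hiso _ (hniso i) with ⟨α, h⟩ | ⟨α, h⟩
    · exact ⟨0, α, by rw [hv0]; exact h⟩
    · exact ⟨1, α, by rw [hv1]; exact h⟩
  choose π α hπ using hex
  have hα : ∀ i, α i ≠ 0 := by
    intro i h0
    apply hniso i
    rw [hπ, h0, zero_smul]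
    have := h1.smul_left 0 0 (0 : Fin 2 → F)
    simpa using this
  have hπinj : Function.Injective π := by
    intro i j hij
    by_contra hne
    have h := hpres (v i) (v j) y y'
    rw [hvv, if_neg hne, zero_mul, hπ i, hπ j, hij, h1.smul_left, h1.herm (v (π j)) (α j • v (π j)),
      h1.smul_left, hvv, if_pos rfl] at h
    exact mul_ne_zero (mul_ne_zero (hα i) (pow_ne_zero 2 (mul_ne_zero (hα j) one_ne_zero))) hb h
  refine ⟨Equiv.ofBijective π (Finite.injective_iff_bijective.1 hπinj), fun i => ?_⟩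
  rw [Equiv.ofBijective_apply]
  apply le_antisymm
  · rintro _ ⟨z, hzD, rfl⟩
    obtain ⟨y, rfl⟩ := (hmem i z).1 hzD
    rw [Matrix.toLin'_apply, hact, hπ]
    refine (hmem _ _).2 ⟨α i • ((b : Matrix (Fin k) (Fin k) F) *ᵥ y), ?_⟩
    rw [q2tL_apply, q2tL_apply, Cfsg.Agent.Lib.Helper17.TensorForm.tp_smul_right,
      Cfsg.Agent.Lib.Helper17.TensorForm.tp_smul_left]
  · intro z hzD
    obtain ⟨y, rfl⟩ := (hmem _ z).1 hzD
    refine ⟨q2tL e P (v i) ((α i)⁻¹ • (((b⁻¹ : GL (Fin k) F) : Matrix (Fin k) (Fin k) F) *ᵥ y)),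
      (hmem i _).2 ⟨_, rfl⟩, ?_⟩
    rw [Matrix.toLin'_apply, hact, hπ, Matrix.mulVec_smul, Matrix.mulVec_mulVec, ← Units.val_mul,
      mul_inv_cancel, Units.val_one, Matrix.one_mulVec, q2tL_apply, q2tL_apply,
      Cfsg.Agent.Lib.Helper17.TensorForm.tp_smul_right, Cfsg.Agent.Lib.Helper17.TensorForm.tp_smul_left,
      smul_smul, inv_mul_cancel₀ (hα i), one_smul]

end Cfsg.Agent.Lib.Helper47.UC
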