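import Cfsg.Agent.Lib.Helper47.UC.MainB
import Cfsg.Agent.Lib.Helper47.UC.Q2B
import Cfsg.Agent.Lib.Helper47.UC.Q2T
import Cfsg.Agent.Lib.Helper47.UC.PDEC
import Cfsg.Agent.Lib.Helper47.UC.PFLD
import Cfsg.Agent.Lib.Helper47.UC.PTEN
import Cfsg.Agent.Lib.Helper47.UC.PSUB
import Cfsg.Agent.Lib.Helper47.UC.FSWAP
import Cfsg.Agent.Lib.Helper80.AS.SWAP
import Cfsg.Agent.Lib.Helper5.AschC.DIM
import Cfsg.Agent.Lib.Helper32.AschU.TVE
import Cfsg.Agent.Lib.Helper32.AschU.PU1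
import Cfsg.Agent.Lib.Helper32.AschU.PU2
import Cfsg.Agent.Lib.Helper17.Herm

set_option autoImplicit false

namespace Cfsg.Agent.Lib.Helper47.UC

open Cfsg Cfsg.Geo
open Cfsg.Agent.Lib.Helper77.Asch (NormBy MinOver)
open Cfsg.Agent.Lib.Helper80.AS (env cen IsScal IsComm SelfAdj Projs tmat IsLeftFactor)
open Cfsg.Agent.Lib.Helper32.AschU (SUg IsTv gram)
open scoped MatrixGroups Matrix Kronecker

variable {n : ℕ} {F : Type*} [Field F]

theorem max_eq {G : Type*} [Group G] {Ω H X : Subgroup G} (hH : IsMaximalIn Ω H) (hle : H ≤ X)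
    (hnot : ¬ Ω ≤ X) : H = X ⊓ Ω := by
  rcases hH.2 (X ⊓ Ω) (le_inf hle hH.1.le) inf_le_right with h | h
  · exact h.symm
  · exact absurd (h ▸ inf_le_left) hnot

theorem subfield_ne_top [Fintype F] (F₀ : Subfield F) (r : ℕ) (hr : 2 ≤ r)
    (hc : Fintype.card F = Nat.card F₀ ^ r) : F₀ ≠ ⊤ := by
  rintro rfl
  have h1 : Nat.card (⊤ : Subfield F) = Fintype.card F := by
    rw [← Nat.card_eq_fintype_card]
    exact Nat.card_congr Subfield.topEquiv.toEquiv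
  rw [h1] at hc
  have h2 : 1 < Fintype.card F := Fintype.one_lt_card
  have h3 : Fintype.card F ^ 1 < Fintype.card F ^ r := Nat.pow_lt_pow_right h2 (by omega)
  rw [pow_one, ← hc] at h3
  exact lt_irrefl _ h3

/-- normalised list of the possibilities for a maximal subgroup of `SU_n(q)`. -/
theorem maximal_cases [Fintype F] (q : ℕ) (hF : Fintype.card F = q ^ 2) (h4 : 4 ≤ n)
    (hpp : ∀ r j : ℕ, r.Prime → n ^ 2 ≠ r ^ j) (hpw : ∀ a k : ℕ, 2 ≤ k → n ≠ a ^ k)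
    (H : Subgroup (GL (Fin n) F)) (hH : IsMaximalIn (SUg n F q) H) :
    (∃ W : Submodule F (Fin n → F), W ≠ ⊥ ∧ IsTotallySingularFor (hermForm n F q) W ∧
      H = subspaceStabilizer W ⊓ SUg n F q) ∨
    (∃ W : Submodule F (Fin n → F), W ≠ ⊥ ∧ IsNondegenerateOn (hermForm n F q) W ∧
      2 * Module.finrank F W < n ∧ H = subspaceStabilizer W ⊓ SUg n F q) ∨
    (∃ (t m : ℕ) (D : Fin t → Submodule F (Fin n → F)), t * m = n ∧ 2 ≤ t ∧ (m = 2 → 3 ≤ q) ∧
      IsNondegenerateMDecomposition (hermForm n F q) m D ∧ H = decompositionStabilizer D ⊓ SUg n F q) ∨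
    (∃ (m : ℕ) (D : Fin 2 → Submodule F (Fin n → F)), 2 * m = n ∧ IsMDecomposition m D ∧
      (∀ i, IsTotallySingularFor (hermForm n F q) (D i)) ∧ H = decompositionStabilizer D ⊓ SUg n F q) ∨
    (∃ (r : ℕ) (K : Subalgebra F (Matrix (Fin n) (Fin n) F)), r.Prime ∧ Odd r ∧ r ∣ n ∧ IsFieldSubalgebra r K ∧
      IsAdjointClosedFor (hermForm n F q) K ∧ H = subalgebraNormalizer K ⊓ SUg n F q) ∨
    (∃ (s k : ℕ) (e : Fin n ≃ Fin s × Fin k) (P : GL (Fin n) F) (f₁ : (Fin s → F) → (Fin s → F) → F)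
      (f₂ : (Fin k → F) → (Fin k → F) → F), s * k = n ∧ 2 ≤ s ∧ s < k ∧ (s = 2 → 3 ≤ q) ∧
      IsUnitaryFormPow q f₁ ∧ IsUnitaryFormPow q f₂ ∧
      IsTensorFormStructure (fun x : F => x ^ q) (hermForm n F q) f₁ f₂ e P ∧
      H = tensorProductSubgroup s k e P ⊓ SUg n F q) ∨
    (∃ (F₀ : Subfield F) (r : ℕ) (P : GL (Fin n) F), r.Prime ∧ Odd r ∧ Fintype.card F = Nat.card F₀ ^ r ∧
      IsFormRationalStructure (hermForm n F q) F₀ 1 P ∧ H = subfieldSubgroup F₀ P ⊓ SUg n F q) ∨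
    (∃ (F₀ : Subfield F) (P : GL (Fin n) F) (ζ : F), Fintype.card F = Nat.card F₀ ^ 2 ∧ ζ ≠ 0 ∧ ζ + ζ ^ q = 0 ∧
      IsFormRationalStructure (hermForm n F q) F₀ ζ P ∧
      (∀ u : Fin n → F, (∀ i, u i ∈ F₀) →
        hermForm n F q ((P : Matrix (Fin n) (Fin n) F) *ᵥ u) ((P : Matrix (Fin n) (Fin n) F) *ᵥ u) = 0) ∧
      H = subfieldSubgroup F₀ P ⊓ SUg n F q) ∨
    (Odd q ∧ ∃ (F₀ : Subfield F) (P : GL (Fin n) F), Fintype.card F = Nat.card F₀ ^ 2 ∧
      IsFormRationalStructure (hermForm n F q) F₀ 1 P ∧ H = subfieldSubgroup F₀ P ⊓ SUg n F q) ∨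
    InUnitaryResidualClass H := by
  have hn : 0 < n := by omega
  have h2n : 2 ≤ n := by omega
  have hHU : H ≤ GU n F q := hH.1.le.trans inf_le_left
  have hq2 : 2 ≤ q := Cfsg.Agent.Lib.Helper17.two_le_of_card_sq hF
  obtain ⟨τ, hτ, hτv⟩ := Cfsg.Agent.Lib.Helper32.AschU.exists_isTv (n := n) q hF h2n
  -- the non-degenerate decomposition alternative
  have alt3 : ∀ (t m : ℕ) (D : Fin t → Submodule F (Fin n → F)),
      IsNondegenerateMDecomposition (hermForm n F q) m D → H ≤ decompositionStabilizer D →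
      ∃ (t m : ℕ) (D : Fin t → Submodule F (Fin n → F)), t * m = n ∧ 2 ≤ t ∧ (m = 2 → 3 ≤ q) ∧
      IsNondegenerateMDecomposition (hermForm n F q) m D ∧ H = decompositionStabilizer D ⊓ SUg n F q := by
    intro t m D hD hle
    have hdim := Cfsg.Agent.Lib.Helper5.AschC.decomp_dim D hD.decomp
    have frame : ∀ D' : Fin n → Submodule F (Fin n → F), IsNondegenerateMDecomposition (hermForm n F q) 1 D' →
        H ≤ decompositionStabilizer D' →
        ∃ (t m : ℕ) (D : Fin t → Submodule F (Fin n → F)), t * m = n ∧ 2 ≤ t ∧ (m = 2 → 3 ≤ q) ∧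
        IsNondegenerateMDecomposition (hermForm n F q) m D ∧ H = decompositionStabilizer D ⊓ SUg n F q :=
      fun D' hD' hle' => ⟨n, 1, D', by omega, h2n, by omega, hD',
        max_eq hH hle' (Cfsg.Agent.Lib.Helper32.AschU.not_le_decomp_U q hF h4 D' hD')⟩
    by_cases hm1 : m = 1
    · subst hm1
      obtain rfl : t = n := by omega
      exact frame D hD hle
    have hm2 : 2 ≤ m := by
      have := hD.decomp.pos
      omega
    by_cases hbad : m = 2 ∧ q = 2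
    · obtain ⟨rfl, rfl⟩ := hbad
      obtain ⟨D', hD', hle'⟩ := q2_blocks hF D hD
      exact frame D' hD' ((le_inf hle hHU).trans hle')
    · exact ⟨t, m, D, hdim, hD.decomp.two_le, by intro h; by_contra hc; exact hbad ⟨h, by omega⟩, hD,
        max_eq hH hle (not_le_decomp_V q hF h2n hm2 D hD.decomp)⟩
  -- the tensor alternative, ordered
  have alt6 : ∀ (s k : ℕ) (e : Fin n ≃ Fin s × Fin k) (P : GL (Fin n) F) (f₁ : (Fin s → F) → (Fin s → F) → F)
      (f₂ : (Fin k → F) → (Fin k → F) → F), 2 ≤ s → s < k → IsUnitaryFormPow q f₁ → IsUnitaryFormPow q f₂ →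
      IsTensorFormStructure (fun x : F => x ^ q) (hermForm n F q) f₁ f₂ e P →
      H ≤ tensorProductSubgroup s k e P →
      (∃ (t m : ℕ) (D : Fin t → Submodule F (Fin n → F)), t * m = n ∧ 2 ≤ t ∧ (m = 2 → 3 ≤ q) ∧
        IsNondegenerateMDecomposition (hermForm n F q) m D ∧ H = decompositionStabilizer D ⊓ SUg n F q) ∨
      (∃ (s k : ℕ) (e : Fin n ≃ Fin s × Fin k) (P : GL (Fin n) F) (f₁ : (Fin s → F) → (Fin s → F) → F)
        (f₂ : (Fin k → F) → (Fin k → F) → F), s * k = n ∧ 2 ≤ s ∧ s < k ∧ (s = 2 → 3 ≤ q) ∧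
        IsUnitaryFormPow q f₁ ∧ IsUnitaryFormPow q f₂ ∧
        IsTensorFormStructure (fun x : F => x ^ q) (hermForm n F q) f₁ f₂ e P ∧
        H = tensorProductSubgroup s k e P ⊓ SUg n F q) := by
    intro s k e P f₁ f₂ hs hsk h1 h2 h3 hle
    have hcard : s * k = n := by
      have := Fintype.card_congr e
      simpa using this.symm
    by_cases hbad : s = 2 ∧ q = 2
    · obtain ⟨rfl, rfl⟩ := hbad
      obtain ⟨D, hD, hle'⟩ := q2_tensor hF (by omega) e P f₁ f₂ h1 h2 h3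
      exact Or.inl (alt3 2 k D hD ((le_inf hle hHU).trans hle'))
    · exact Or.inr ⟨s, k, e, P, f₁, f₂, hcard, hs, hsk, by intro h; by_contra hc; exact hbad ⟨h, by omega⟩,
        h1, h2, h3, max_eq hH hle (fun hc => tv_not_mem_tensor hs (by omega) e P τ hτv (hc hτ))⟩
  rcases main q hF h4 hpp hpw H hHU with hgeo | hres
  swap
  · exact Or.inr (Or.inr (Or.inr (Or.inr (Or.inr (Or.inr (Or.inr (Or.inr (Or.inr hres))))))))
  rcases hgeo with ⟨W, h0, h1, h2⟩ | ⟨W, h0, h1, h2, h3⟩ | ⟨t, m, D, h1, h2⟩ | ⟨m, D, h1, h2, h3⟩ |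
    ⟨r, A, h1, h2, h3, h4', h5⟩ | ⟨s, k, e, P, f₁, f₂, h1, h2, h3, h4', h5, h6⟩ | ⟨F₀, r, P, h1, h2, h3, h4', h5⟩ |
    ⟨F₀, P, ζ, h1, h2, h3, h4', h5, h6⟩ | ⟨h0, F₀, P, h1, h2, h3⟩
  · exact Or.inl ⟨W, h0, h1, max_eq hH h2 (Cfsg.Agent.Lib.Helper32.AschU.not_le_subspace_U q hF h2n W h0
      (Cfsg.Agent.Lib.Helper32.AschU.totSing_ne_top q hn W h1))⟩
  · refine Or.inr (Or.inl ⟨W, h0, h1, h2, max_eq hH h3
      (Cfsg.Agent.Lib.Helper32.AschU.not_le_subspace_U q hF h2n W h0 ?_)⟩)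
    rintro rfl
    rw [finrank_top, Module.finrank_fin_fun] at h2
    omega
  · exact Or.inr (Or.inr (Or.inl (alt3 t m D h1 h2)))
  · have hdim := Cfsg.Agent.Lib.Helper5.AschC.decomp_dim D h1
    exact Or.inr (Or.inr (Or.inr (Or.inl ⟨m, D, hdim, h1, h2,
      max_eq hH h3 (not_le_decomp_V q hF h2n (by omega) D h1)⟩)))
  · exact Or.inr (Or.inr (Or.inr (Or.inr (Or.inl ⟨r, A, h1, h2,
      Cfsg.Agent.Lib.Helper77.Asch.deg_dvd hn r A h3, h3, h4',
      max_eq hH h5 (fun hc => tv_not_mem_fieldNormalizer' (by omega) r h1.one_lt A h3 τ hτv (hc hτ))⟩))))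
  · have hcard : s * k = n := by
      have := Fintype.card_congr e
      simpa using this.symm
    have hne : s ≠ k := by
      rintro rfl
      exact hpw s 2 le_rfl (by rw [← hcard, sq])
    rcases lt_or_gt_of_ne hne with hlt | hgt
    · rcases alt6 s k e P f₁ f₂ h1 hlt h3 h4' h5 h6 with h | h
      · exact Or.inr (Or.inr (Or.inl h))
      · exact Or.inr (Or.inr (Or.inr (Or.inr (Or.inr (Or.inl h)))))
    · rcases alt6 k s (e.trans (Equiv.prodComm _ _)) P f₂ f₁ h2 hgt h4' h3 (form_swap _ _ f₁ f₂ e P h5)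
        (h6.trans (Cfsg.Agent.Lib.Helper80.AS.tensor_swap e P).le) with h | h
      · exact Or.inr (Or.inr (Or.inl h))
      · exact Or.inr (Or.inr (Or.inr (Or.inr (Or.inr (Or.inl h)))))
  · exact Or.inr (Or.inr (Or.inr (Or.inr (Or.inr (Or.inr (Or.inl ⟨F₀, r, P, h1, h2, h3, h4',
      max_eq hH h5 (not_le_subfield_V q hF h4 F₀ (subfield_ne_top F₀ r h1.two_le h3) P)⟩))))))
  · exact Or.inr (Or.inr (Or.inr (Or.inr (Or.inr (Or.inr (Or.inr (Or.inl ⟨F₀, P, ζ, h1, h2, h3, h4', h5,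
      max_eq hH h6 (not_le_subfield_V q hF h4 F₀ (subfield_ne_top F₀ 2 le_rfl h1) P)⟩)))))))
  · exact Or.inr (Or.inr (Or.inr (Or.inr (Or.inr (Or.inr (Or.inr (Or.inr (Or.inl ⟨h0, F₀, P, h1, h2,
      max_eq hH h3 (not_le_subfield_V q hF h4 F₀ (subfield_ne_top F₀ 2 le_rfl h1) P)⟩))))))))

end Cfsg.Agent.Lib.Helper47.UC
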