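import Cfsg.Agent.Lib.Helper47.UC.Defs
import Cfsg.Agent.Lib.Helper17.Herm

set_option autoImplicit false

namespace Cfsg.Agent.Lib.Helper47.UC

open Cfsg Cfsg.Geo
open Cfsg.Agent.Lib.Helper77.Asch (NormBy MinOver)
open Cfsg.Agent.Lib.Helper80.AS (env cen IsScal IsComm SelfAdj Projs tmat IsLeftFactor)
open Cfsg.Agent.Lib.Helper32.AschU (SUg IsTv gram)
open scoped MatrixGroups Matrix Kronecker

variable {n : ℕ} {F : Type*} [Field F]

-- RUNG NDDU
/-- NDDU (unitary copy of Helper80 NDD). -/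
theorem nondeg_decomp_U [Fintype F] (q : ℕ) (hF : Fintype.card F = q ^ 2) {t d : ℕ}
    (D : Fin t → Submodule F (Fin n → F)) (hD : IsMDecomposition d D)
    (hp : ∀ j, ∃ e : Matrix (Fin n) (Fin n) F, SelfAdj (hermForm n F q) e ∧ (∀ v ∈ D j, e *ᵥ v = v) ∧
      ∀ i, i ≠ j → ∀ u ∈ D i, e *ᵥ u = 0) :
    IsNondegenerateMDecomposition (hermForm n F q) d D := by
  classical
  have hq : q ≠ 0 := by
    have := Cfsg.Agent.Lib.Helper17.two_le_of_card_sq hF
    omega
  refine ⟨hD, ?_, ?_⟩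
  · intro i w hw hw0
    obtain ⟨e, hsa, he1, he0⟩ := hp i
    have hmem : ∀ x : Fin n → F, e *ᵥ x ∈ D i := by
      intro x
      have hx : x ∈ iSup D := by rw [hD.iSup_eq_top]; trivial
      induction hx using Submodule.iSup_induction' with
      | mem k y hy =>
        by_cases hk : k = i
        · subst hk
          rw [he1 y hy]; exact hy
        · rw [he0 k hk y hy]; exact Submodule.zero_mem _
      | zero => rw [Matrix.mulVec_zero]; exact Submodule.zero_mem _
      | add y z _ _ hy hz => rw [Matrix.mulVec_add]; exact Submodule.add_mem _ hy hz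
    obtain ⟨a, ha⟩ := Function.ne_iff.1 hw0
    have hx : hermForm n F q (Pi.single a 1) w ≠ 0 := by
      rw [Cfsg.Agent.Lib.Helper17.hermForm_single_left]
      exact pow_ne_zero _ ha
    have h1 : hermForm n F q (e *ᵥ Pi.single a 1) w ≠ 0 := by
      rw [hsa _ w, he1 w hw]; exact hx
    refine ⟨⟨_, hmem _, h1⟩, ⟨_, hmem (Pi.single a 1), ?_⟩⟩
    rw [← Cfsg.Agent.Lib.Helper17.hermForm_conj hF]
    exact pow_ne_zero _ h1
  · intro i j hij u hu v hv
    obtain ⟨e, hsa, he1, he0⟩ := hp i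
    rw [← he1 u hu, hsa u v, he0 j (Ne.symm hij) v hv]
    simp [hermForm, hq]

end Cfsg.Agent.Lib.Helper47.UC
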