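import Cfsg.Agent.Lib.Helper47.UC.Defs
import Cfsg.Agent.Lib.Helper17.Herm

set_option autoImplicit false
set_option linter.unusedSectionVars false

namespace Cfsg.Agent.Lib.Helper47.UC

open Cfsg Cfsg.Geo
open Cfsg.Agent.Lib.Helper77.Asch (NormBy MinOver)
open Cfsg.Agent.Lib.Helper80.AS (env cen IsScal IsComm SelfAdj Projs tmat IsLeftFactor)
open Cfsg.Agent.Lib.Helper32.AschU (SUg IsTv gram)
open Cfsg.Agent.Lib.Helper17
open scoped MatrixGroups Matrix Kronecker

/-- abstract form: a quadratic extension `L` of `F`, `|F| = q²`, has no involutive ring automorphism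
inducing `c ↦ c^q` on `F`. -/
theorem noeven_aux {F L : Type*} [Field F] [Fintype F] [Field L] [Finite L] [Algebra F L] (q : ℕ)
    (hF : Fintype.card F = q ^ 2) (h2 : Module.finrank F L = 2) (a : L →+* L)
    (ha : ∀ x, a (a x) = x) (hc : ∀ c : F, a (algebraMap F L c) = algebraMap F L (c ^ q)) :
    False := by
  obtain ⟨p, k, hp, hchar, rfl⟩ := exists_char_pow hF
  have hcharL : CharP L p := charP_of_injective_algebraMap (algebraMap F L).injective p
  have hexp : ExpChar L p := ExpChar.prime hp
  let ρ : L →ₐ[F] L :=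
    { a.comp (iterateFrobenius L p k) with
      commutes' := by
        intro c
        change a (iterateFrobenius L p k (algebraMap F L c)) = algebraMap F L c
        rw [iterateFrobenius_def, ← map_pow, hc, pow_q_pow_q hF] }
  have hρ : ∀ x, ρ x = a (x ^ p ^ k) := by
    intro x
    change a (iterateFrobenius L p k x) = _
    rw [iterateFrobenius_def]
  have hρ2 : ∀ x, ρ (ρ x) = x ^ Fintype.card F := by
    intro x
    rw [hρ, hρ, ← map_pow, ha, hF, ← pow_mul, sq]
  have hbij : Function.Bijective ρ :=
    Finite.injective_iff_bijective.1 ρ.toRingHom.injective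
  let e : L ≃ₐ[F] L := AlgEquiv.ofBijective ρ hbij
  have he : ∀ x, e x = ρ x := fun x => rfl
  have hcard : Nat.card (L ≃ₐ[F] L) = 2 := by rw [IsGalois.card_aut_eq_finrank, h2]
  have he2 : e ^ 2 = 1 := by
    rw [← hcard]
    exact pow_card_eq_one'
  have hfix : ∀ x : L, x ^ Fintype.card F = x := by
    intro x
    rw [← hρ2, ← he, ← he]
    have := congrArg (fun g : L ≃ₐ[F] L => g x) he2
    rw [sq] at this
    exact this
  have hord : orderOf (FiniteField.frobeniusAlgEquivOfAlgebraic F L) = 2 := by
    rw [FiniteField.orderOf_frobeniusAlgEquivOfAlgebraic, h2]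
  have h1 : FiniteField.frobeniusAlgEquivOfAlgebraic F L = 1 := by
    apply AlgEquiv.ext
    intro x
    rw [FiniteField.coe_frobeniusAlgEquivOfAlgebraic]
    exact hfix x
  rw [h1, orderOf_one] at hord
  norm_num at hord

variable {n : ℕ} {F : Type*} [Field F]

/-- uniqueness of adjoints. -/
theorem noeven_uniq [Fintype F] (q : ℕ) (hF : Fintype.card F = q ^ 2)
    (x y : Matrix (Fin n) (Fin n) F)
    (h : ∀ u v, hermForm n F q u (x *ᵥ v) = hermForm n F q u (y *ᵥ v)) : x = y := by
  apply Matrix.toLin'.injective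
  apply LinearMap.ext
  intro v
  rw [Matrix.toLin'_apply, Matrix.toLin'_apply]
  funext i
  have h1 := h (Pi.single i 1) v
  rw [hermForm_single_left, hermForm_single_left] at h1
  have h2 := congrArg (fun z => z ^ q) h1
  simp only [pow_q_pow_q hF] at h2
  exact h2

-- RUNG NOEVEN
theorem no_even_field [Fintype F] (q : ℕ) (hF : Fintype.card F = q ^ 2) (hn : 0 < n)
    (K : Subalgebra F (Matrix (Fin n) (Fin n) F)) (hK : IsFieldSubalgebra 2 K)
    (hadj : IsAdjointClosedFor (hermForm n F q) K) : False := by
  have : NeZero n := ⟨hn.ne'⟩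
  have hfld : IsField K :=
    { exists_pair_ne := ⟨0, 1, fun h => by
        have h1 : (0 : Matrix (Fin n) (Fin n) F) = 1 := congrArg Subtype.val h
        exact zero_ne_one h1⟩
      mul_comm := fun x y => Subtype.ext (hK.comm x.1 x.2 y.1 y.2)
      mul_inv_cancel := fun {x} hx => by
        obtain ⟨y, hy, hxy⟩ := hK.inv x.1 x.2 (fun h => hx (Subtype.ext h))
        exact ⟨⟨y, hy⟩, Subtype.ext hxy⟩ }
  choose! a ha1 ha2 using hadj
  have hadd : ∀ x ∈ K, ∀ y ∈ K, a (x + y) = a x + a y := by
    intro x hx y hy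
    apply noeven_uniq q hF
    intro u v
    rw [← ha2 _ (K.add_mem hx hy), Matrix.add_mulVec, Matrix.add_mulVec, hermForm_add_left,
      hermForm_add_right hF, ha2 x hx, ha2 y hy]
  have hmul : ∀ x ∈ K, ∀ y ∈ K, a (x * y) = a x * a y := by
    intro x hx y hy
    apply noeven_uniq q hF
    intro u v
    rw [← ha2 _ (K.mul_mem hx hy), hK.comm _ (ha1 x hx) _ (ha1 y hy), ← Matrix.mulVec_mulVec,
      ← Matrix.mulVec_mulVec, ha2 x hx, ha2 y hy]
  have hsc : ∀ c : F, a (algebraMap F (Matrix (Fin n) (Fin n) F) c) =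
      algebraMap F (Matrix (Fin n) (Fin n) F) (c ^ q) := by
    intro c
    apply noeven_uniq q hF
    intro u v
    rw [← ha2 _ (K.algebraMap_mem c), Algebra.algebraMap_eq_smul_one,
      Algebra.algebraMap_eq_smul_one, Matrix.smul_mulVec,
      Matrix.smul_mulVec, Matrix.one_mulVec, Matrix.one_mulVec, hermForm_smul_left,
      hermForm_smul_right, pow_q_pow_q hF]
  have hinv : ∀ x ∈ K, a (a x) = x := by
    intro x hx
    apply noeven_uniq q hF
    intro u v
    rw [← ha2 _ (ha1 x hx), ← hermForm_conj hF, ← ha2 x hx, hermForm_conj hF]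
  let α : K →+* K :=
    { toFun := fun x => ⟨a x, ha1 x x.2⟩
      map_one' := by
        apply Subtype.ext
        have := hsc 1
        rw [one_pow, map_one] at this
        exact this
      map_mul' := fun x y => Subtype.ext (hmul x x.2 y y.2)
      map_zero' := by
        apply Subtype.ext
        have := hsc 0
        rw [zero_pow (by have := two_le_of_card_sq hF; omega), map_zero] at this
        exact this
      map_add' := fun x y => Subtype.ext (hadd x x.2 y y.2) }
  have hfin : Finite K := inferInstance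
  exact @noeven_aux F K _ _ hfld.toField hfin K.algebra q hF hK.finrank_eq α
    (fun x => Subtype.ext (hinv x x.2)) (fun c => Subtype.ext (hsc c))

end Cfsg.Agent.Lib.Helper47.UC
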