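import Cfsg.Agent.Lib.Helper47.UC.Defs
import Cfsg.Agent.Lib.Helper47.UC.NOEVEN
import Cfsg.Agent.Lib.Helper80.AS.SUBKN

set_option autoImplicit false

namespace Cfsg.Agent.Lib.Helper47.UC

open Cfsg Cfsg.Geo
open Cfsg.Agent.Lib.Helper77.Asch (NormBy MinOver)
open Cfsg.Agent.Lib.Helper80.AS (env cen IsScal IsComm SelfAdj Projs tmat IsLeftFactor)
open Cfsg.Agent.Lib.Helper32.AschU (SUg IsTv gram)
open scoped MatrixGroups Matrix Kronecker

variable {n : ℕ} {F : Type*} [Field F]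

-- RUNG SUBKAU
theorem subfield_alg_adj_U [Fintype F] (q : ℕ) (hF : Fintype.card F = q ^ 2)
    (K K' : Subalgebra F (Matrix (Fin n) (Fin n) F)) (N : ℕ) (h : ∀ x, x ∈ K' ↔ x ∈ K ∧ x ^ N = x)
    (hadj : IsAdjointClosedFor (hermForm n F q) K) : IsAdjointClosedFor (hermForm n F q) K' := by
  intro x hx
  obtain ⟨hxK, hxN⟩ := (h x).1 hx
  obtain ⟨x', hx'K, hx'⟩ := hadj x hxK
  refine ⟨x', (h x').2 ⟨hx'K, ?_⟩, hx'⟩
  have h1 := Cfsg.Agent.Lib.Helper80.AS.subkn_adj_pow (hermForm n F q) x x' hx' N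
  rw [hxN] at h1
  apply noeven_uniq q hF
  intro u v
  rw [← h1, ← hx']

end Cfsg.Agent.Lib.Helper47.UC
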