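import Cfsg.Agent.Lib.Helper47.UC.Defs
import Cfsg.Agent.Lib.Helper80.AS.TSP
import Cfsg.Agent.Lib.Helper17.Herm

set_option autoImplicit false
set_option linter.unusedSectionVars false

namespace Cfsg.Agent.Lib.Helper47.UC

open Cfsg Cfsg.Geo
open Cfsg.Agent.Lib.Helper77.Asch (NormBy MinOver)
open Cfsg.Agent.Lib.Helper80.AS (env cen IsScal IsComm SelfAdj Projs tmat IsLeftFactor)
open Cfsg.Agent.Lib.Helper32.AschU (SUg IsTv gram)
open Cfsg.Agent.Lib.Helper17
open scoped MatrixGroups Matrix Kronecker

variable {n : ℕ} {F : Type*} [Field F]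

theorem tspu_zero_right [Fintype F] (q : ℕ) (hF : Fintype.card F = q ^ 2) (u : Fin n → F) :
    hermForm n F q u 0 = 0 := by
  have hq : q ≠ 0 := by have := two_le_of_card_sq hF; omega
  simp [hermForm, hq]

theorem tspu_zero_left (q : ℕ) (u : Fin n → F) : hermForm n F q 0 u = 0 := by
  simp [hermForm]

/-- a hermitian form vanishing on all pairs of blocks is zero. -/
theorem tspu_zero [Fintype F] (q : ℕ) (hF : Fintype.card F = q ^ 2) {t : ℕ}
    (D : Fin t → Submodule F (Fin n → F)) (h : iSup D = ⊤)
    (h0 : ∀ i j, ∀ u ∈ D i, ∀ v ∈ D j, hermForm n F q u v = 0) : ∀ u v, hermForm n F q u v = 0 := by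
  have h1 : ∀ i, ∀ u ∈ D i, ∀ v, hermForm n F q u v = 0 := by
    intro i u hu
    let S : Submodule F (Fin n → F) :=
      { carrier := {v | hermForm n F q u v = 0}
        zero_mem' := tspu_zero_right q hF u
        add_mem' := by
          intro a b ha hb
          change hermForm n F q u (a + b) = 0
          rw [hermForm_add_right hF, ha, hb, add_zero]
        smul_mem' := by
          intro c a ha
          change hermForm n F q u (c • a) = 0
          rw [hermForm_smul_right, ha, mul_zero] }
    have hS : iSup D ≤ S := iSup_le (fun j v hv => h0 i j u hu v hv)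
    rw [h] at hS
    intro v
    exact hS (Submodule.mem_top (x := v))
  intro u v
  let S : Submodule F (Fin n → F) :=
    { carrier := {u | hermForm n F q u v = 0}
      zero_mem' := tspu_zero_left q v
      add_mem' := by
        intro a b ha hb
        change hermForm n F q (a + b) v = 0
        rw [hermForm_add_left, ha, hb, add_zero]
      smul_mem' := by
        intro c a ha
        change hermForm n F q (c • a) v = 0
        rw [hermForm_smul_left, ha, mul_zero] }
  have hS : iSup D ≤ S := iSup_le (fun j u hu => h1 j u hu v)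
  rw [h] at hS
  exact hS (Submodule.mem_top (x := u))

/-- left cancellation. -/
theorem tspu_cancel [Fintype F] (q : ℕ) (hF : Fintype.card F = q ^ 2) (x y : Fin n → F)
    (h : ∀ b, hermForm n F q x b = hermForm n F q y b) : x = y := by
  have hq : q ≠ 0 := by have := two_le_of_card_sq hF; omega
  funext i
  have := h (Pi.single i 1)
  rwa [hermForm_single_right q n hq, hermForm_single_right q n hq] at this

-- RUNG TSPU
theorem ts_pair_U [Fintype F] (q : ℕ) (hF : Fintype.card F = q ^ 2) (hn : 0 < n)
    (E : Subalgebra F (Matrix (Fin n) (Fin n) F)) (hc : IsComm E)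
    (hadj : IsAdjointClosedFor (hermForm n F q) E)
    (h0 : ∀ x ∈ E, x * x = x → SelfAdj (hermForm n F q) x → x = 0 ∨ x = 1) {t d : ℕ}
    (D : Fin t → Submodule F (Fin n → F)) (hD : IsMDecomposition d D) (hp : Projs E D) :
    t = 2 ∧ ∀ i, IsTotallySingularFor (hermForm n F q) (D i) := by
  set f := hermForm n F q with hfdef
  have hne : ∀ j, ∃ w ∈ D j, w ≠ 0 := by
    intro j
    apply Submodule.exists_mem_ne_zero_of_ne_bot
    intro h
    have := hD.finrank_eq j
    rw [h, finrank_bot] at this
    have := hD.pos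
    omega
  have key : ∀ i : Fin t, ∃ e ∈ E, ∃ e' ∈ E, (∀ v ∈ D i, e *ᵥ v = v) ∧
      (∀ j, j ≠ i → ∀ u ∈ D j, e *ᵥ u = 0) ∧ (∀ u v, f (e *ᵥ u) v = f u (e' *ᵥ v)) ∧
      (∀ u v, f (e' *ᵥ u) v = f u (e *ᵥ v)) ∧ e' * e = 0 ∧ e + e' = 1 := by
    intro i
    obtain ⟨e, heE, he1, he0⟩ := hp i
    obtain ⟨e', he'E, hee'⟩ := hadj e heE
    have hee'' : ∀ u v, f (e' *ᵥ u) v = f u (e *ᵥ v) := by
      intro u v
      have h1 : f (e' *ᵥ u) v = (f v (e' *ᵥ u)) ^ q := (hermForm_conj hF n _ _).symm
      have h2 : (f (e *ᵥ v) u) ^ q = f u (e *ᵥ v) := hermForm_conj hF n _ _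
      rw [h1, ← hee', h2]
    have hidem : e * e = e := by
      apply Cfsg.Agent.Lib.Helper80.AS.tsp_ext D hD.iSup_eq_top
      intro j v hv
      rw [← Matrix.mulVec_mulVec]
      by_cases hj : j = i
      · subst hj
        rw [he1 v hv, he1 v hv]
      · rw [he0 j hj v hv, Matrix.mulVec_zero]
    have hidem' : e' * e' = e' := by
      apply Matrix.toLin'.injective
      apply LinearMap.ext
      intro a
      rw [Matrix.toLin'_apply, Matrix.toLin'_apply]
      apply tspu_cancel q hF
      intro b
      change f _ b = f _ b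
      rw [← Matrix.mulVec_mulVec, hee'', hee'', Matrix.mulVec_mulVec, hidem, hee'']
    have hcomm : e * e' = e' * e := hc e heE e' he'E
    obtain ⟨j, hj⟩ : ∃ j : Fin t, j ≠ i := by
      have h2 := hD.two_le
      by_cases hi : (i : ℕ) = 0
      · exact ⟨⟨1, by omega⟩, fun h => by
          have := congrArg Fin.val h
          simp at this
          omega⟩
      · exact ⟨⟨0, by omega⟩, fun h => by
          have := congrArg Fin.val h
          simp at this
          omega⟩
    obtain ⟨w, hw, hw0⟩ := hne j
    have hnotinv : ∀ z : Matrix (Fin n) (Fin n) F, e * z ≠ 1 := by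
      intro z hz
      have h1 : z * e = 1 := mul_eq_one_comm.1 hz
      apply hw0
      have h2 : (z * e) *ᵥ w = w := by rw [h1, Matrix.one_mulVec]
      rw [← Matrix.mulVec_mulVec, he0 j hj w hw, Matrix.mulVec_zero] at h2
      exact h2.symm
    have hp0 : e * e' = 0 := by
      have hsa : SelfAdj f (e * e') := by
        intro u v
        rw [← Matrix.mulVec_mulVec, hee', hee'', Matrix.mulVec_mulVec]
      have hpp : (e * e') * (e * e') = e * e' := by
        calc (e * e') * (e * e') = e * (e' * e) * e' := by simp only [mul_assoc]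
          _ = e * (e * e') * e' := by rw [hcomm]
          _ = (e * e) * (e' * e') := by simp only [mul_assoc]
          _ = e * e' := by rw [hidem, hidem']
      rcases h0 _ (E.mul_mem heE he'E) hpp hsa with h1 | h1
      · exact h1
      · exact absurd h1 (hnotinv e')
    have hs1 : e + e' = 1 := by
      have hsa : SelfAdj f (e + e') := by
        intro u v
        rw [Matrix.add_mulVec, Matrix.add_mulVec, hfdef, hermForm_add_left, hermForm_add_right hF,
          ← hfdef, hee', hee'', add_comm]
      have hss : (e + e') * (e + e') = e + e' := by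
        rw [add_mul, mul_add, mul_add, hidem, hidem', ← hcomm, hp0]
        simp
      rcases h0 _ (E.add_mem heE he'E) hss hsa with h1 | h1
      · exfalso
        have h2 : e' = -e := by
          rw [eq_neg_iff_add_eq_zero, add_comm]; exact h1
        rw [h2, mul_neg, hidem, neg_eq_zero] at hp0
        obtain ⟨x, hx, hx0⟩ := hne i
        apply hx0
        rw [← he1 x hx, hp0, Matrix.zero_mulVec]
      · exact h1
    exact ⟨e, heE, e', he'E, he1, he0, hee', hee'', hcomm ▸ hp0, hs1⟩
  have z2 : ∀ v, f v 0 = 0 := fun v => tspu_zero_right q hF v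
  have hts : ∀ i, IsTotallySingularFor f (D i) := by
    intro i u hu v hv
    obtain ⟨e, -, e', -, he1, -, hee', -, hp0, -⟩ := key i
    have h1 : f u v = f (e *ᵥ u) (e *ᵥ v) := by rw [he1 u hu, he1 v hv]
    rw [h1, hee', Matrix.mulVec_mulVec, hp0, Matrix.zero_mulVec, z2]
  have hort : ∀ i j k : Fin t, j ≠ i → k ≠ i → ∀ u ∈ D j, ∀ v ∈ D k, f u v = 0 := by
    intro i j k hj hk u hu v hv
    obtain ⟨e, -, e', -, -, he0, hee', hee'', hp0, hs1⟩ := key i
    have h1 : ∀ l, l ≠ i → ∀ x ∈ D l, e' *ᵥ x = x := by
      intro l hl x hx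
      have h2 : (e + e') *ᵥ x = x := by rw [hs1, Matrix.one_mulVec]
      rw [Matrix.add_mulVec, he0 l hl x hx, zero_add] at h2
      exact h2
    have h2 : f u v = f (e' *ᵥ u) v := by rw [h1 j hj u hu]
    rw [h2, hee'', he0 k hk v hv, z2]
  have ht : t = 2 := by
    by_contra hne2
    have h3 : 3 ≤ t := by
      have := hD.two_le
      omega
    have hall : ∀ j k : Fin t, ∀ u ∈ D j, ∀ v ∈ D k, f u v = 0 := by
      intro j k
      obtain ⟨i, hij, hik⟩ : ∃ i : Fin t, j ≠ i ∧ k ≠ i := by
        by_contra hcon
        push Not at hcon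
        have hsub : (Finset.univ : Finset (Fin t)) ⊆ {j, k} := by
          intro i _
          by_cases hji : j = i
          · simp [hji]
          · have := hcon i hji
            simp [this]
        have h4 := Finset.card_le_card hsub
        have h5 : ({j, k} : Finset (Fin t)).card ≤ 2 := Finset.card_le_two
        rw [Finset.card_univ, Fintype.card_fin] at h4
        omega
      exact hort i j k hij hik
    have hzero := tspu_zero q hF D hD.iSup_eq_top hall
    obtain ⟨w, -, hw0⟩ := hne ⟨0, by omega⟩
    apply hw0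
    apply tspu_cancel q hF
    intro b
    rw [hzero, hzero]
  exact ⟨ht, hts⟩

end Cfsg.Agent.Lib.Helper47.UC
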