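import Cfsg.Agent.Lib.Helper47.UC.Defs
import Cfsg.Agent.Lib.Helper47.UC.CA3G
import Cfsg.Agent.Lib.Helper47.UC.NDDU
import Cfsg.Agent.Lib.Helper47.UC.TSPU
import Cfsg.Agent.Lib.Helper47.UC.SUBKAU
import Cfsg.Agent.Lib.Helper47.UC.NOEVEN
import Cfsg.Agent.Lib.Helper77.Asch.Main
import Cfsg.Agent.Lib.Helper80.AS.CA1
import Cfsg.Agent.Lib.Helper80.AS.CA2
import Cfsg.Agent.Lib.Helper80.AS.SUBK
import Cfsg.Agent.Lib.Helper80.AS.SUBKN

set_option autoImplicit false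

namespace Cfsg.Agent.Lib.Helper47.UC

open Cfsg Cfsg.Geo
open Cfsg.Agent.Lib.Helper77.Asch (NormBy MinOver)
open Cfsg.Agent.Lib.Helper80.AS (env cen IsScal IsComm SelfAdj Projs tmat IsLeftFactor)
open Cfsg.Agent.Lib.Helper32.AschU (SUg IsTv gram)
open scoped MatrixGroups Matrix Kronecker

variable {n : ℕ} {F : Type*} [Field F]

theorem selfAdj_mul (f : (Fin n → F) → (Fin n → F) → F) (x y : Matrix (Fin n) (Fin n) F)
    (hx : SelfAdj f x) (hy : SelfAdj f y) (hc : x * y = y * x) : SelfAdj f (x * y) := by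
  intro u v
  rw [← Matrix.mulVec_mulVec, hx, hy, Matrix.mulVec_mulVec, ← hc]

theorem selfAdj_conj (f : (Fin n → F) → (Fin n → F) → F) (g : GL (Fin n) F) (hg : g ∈ similarityGroup f)
    (x : Matrix (Fin n) (Fin n) F) (hx : SelfAdj f x) :
    SelfAdj f ((g : Matrix (Fin n) (Fin n) F) * x * ((g⁻¹ : GL (Fin n) F) : Matrix (Fin n) (Fin n) F)) := by
  obtain ⟨c, hc⟩ := hg
  have hgg : ∀ w : Fin n → F, (g : Matrix (Fin n) (Fin n) F) *ᵥ
      (((g⁻¹ : GL (Fin n) F) : Matrix (Fin n) (Fin n) F) *ᵥ w) = w := by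
    intro w
    rw [Matrix.mulVec_mulVec, ← Units.val_mul, mul_inv_cancel, Units.val_one, Matrix.one_mulVec]
  intro u v
  have h1 : f (((g : Matrix (Fin n) (Fin n) F) * x * ((g⁻¹ : GL (Fin n) F) : Matrix (Fin n) (Fin n) F)) *ᵥ u) v
      = (c : F) * f (x *ᵥ (((g⁻¹ : GL (Fin n) F) : Matrix (Fin n) (Fin n) F) *ᵥ u))
          (((g⁻¹ : GL (Fin n) F) : Matrix (Fin n) (Fin n) F) *ᵥ v) := by
    rw [← hc, hgg, Matrix.mulVec_mulVec, Matrix.mulVec_mulVec, mul_assoc]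
  have h2 : f u (((g : Matrix (Fin n) (Fin n) F) * x * ((g⁻¹ : GL (Fin n) F) : Matrix (Fin n) (Fin n) F)) *ᵥ v)
      = (c : F) * f (((g⁻¹ : GL (Fin n) F) : Matrix (Fin n) (Fin n) F) *ᵥ u)
          (x *ᵥ (((g⁻¹ : GL (Fin n) F) : Matrix (Fin n) (Fin n) F) *ᵥ v)) := by
    rw [← hc, hgg, Matrix.mulVec_mulVec, Matrix.mulVec_mulVec, mul_assoc]
  rw [h1, h2, hx]

theorem conj_idem (g : GL (Fin n) F) (e : Matrix (Fin n) (Fin n) F) (he : e * e = e) :
    ((g : Matrix (Fin n) (Fin n) F) * e * ((g⁻¹ : GL (Fin n) F) : Matrix (Fin n) (Fin n) F)) *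
      ((g : Matrix (Fin n) (Fin n) F) * e * ((g⁻¹ : GL (Fin n) F) : Matrix (Fin n) (Fin n) F)) =
      (g : Matrix (Fin n) (Fin n) F) * e * ((g⁻¹ : GL (Fin n) F) : Matrix (Fin n) (Fin n) F) := by
  have h : ((g⁻¹ : GL (Fin n) F) : Matrix (Fin n) (Fin n) F) * (g : Matrix (Fin n) (Fin n) F) = 1 := by
    rw [← Units.val_mul, inv_mul_cancel, Units.val_one]
  calc _ = (g : Matrix (Fin n) (Fin n) F) * e *
        (((g⁻¹ : GL (Fin n) F) : Matrix (Fin n) (Fin n) F) * (g : Matrix (Fin n) (Fin n) F)) * e *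
          ((g⁻¹ : GL (Fin n) F) : Matrix (Fin n) (Fin n) F) := by simp only [mul_assoc]
    _ = _ := by rw [h, mul_one, mul_assoc (g : Matrix (Fin n) (Fin n) F) e e, he]

theorem isScal_of_finrank_one (hn : 0 < n) (E : Subalgebra F (Matrix (Fin n) (Fin n) F))
    (h : Module.finrank F E = 1) : IsScal E := by
  haveI : Nonempty (Fin n) := ⟨⟨0, hn⟩⟩
  have hbot : E = ⊥ := Subalgebra.finrank_eq_one_iff.1 h
  intro x hx
  rw [hbot, Algebra.mem_bot] at hx
  obtain ⟨c, rfl⟩ := hx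
  exact ⟨c, by rw [Algebra.algebraMap_eq_smul_one]⟩

/-- a commutative adjoint-closed subalgebra normalised by an irreducible group of similitudes: classes 2, 3 or scalar. -/
theorem comm_cases [Fintype F] (q : ℕ) (hF : Fintype.card F = q ^ 2) (hn : 0 < n) (Γ : Subgroup (GL (Fin n) F))
    (hΓ : Γ ≤ similarityGroup (hermForm n F q)) (hirr : ActsIrreducibly (matrixSet Γ))
    (E : Subalgebra F (Matrix (Fin n) (Fin n) F)) (hc : IsComm E) (hnorm : Γ ≤ subalgebraNormalizer E)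
    (hadj : IsAdjointClosedFor (hermForm n F q) E) : InGeoV q Γ ∨ IsScal E := by
  classical
  by_cases h1 : ∃ e ∈ E, e * e = e ∧ SelfAdj (hermForm n F q) e ∧ e ≠ 0 ∧ e ≠ 1
  · left
    obtain ⟨e₀, he₀, hid₀, hsa₀, h0, h1'⟩ := h1
    obtain ⟨t, d, D, hD, hle, hp⟩ := idem_decomp Γ hirr
      {e | e ∈ E ∧ e * e = e ∧ SelfAdj (hermForm n F q) e} (fun e he => he.2.1)
      (fun e he e' he' => hc e he.1 e' he'.1)
      (fun e he e' he' => ⟨E.mul_mem he.1 he'.1, by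
        rw [mul_assoc, ← mul_assoc e' e e', hc e' he'.1 e he.1, mul_assoc e e' e', he'.2.1, ← mul_assoc, he.2.1],
        selfAdj_mul _ e e' he.2.2 he'.2.2 (hc e he.1 e' he'.1)⟩)
      (fun g hg e he => ⟨((hnorm hg) e).1 he.1, conj_idem g e he.2.1, selfAdj_conj _ g (hΓ hg) e he.2.2⟩)
      e₀ ⟨he₀, hid₀, hsa₀⟩ h0 h1'
    refine Or.inr (Or.inr (Or.inl ⟨t, d, D, nondeg_decomp_U q hF D hD (fun j => ?_), hle⟩))
    obtain ⟨e, he, h2, h3⟩ := hp j
    exact ⟨e, he.2.2, h2, h3⟩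
  · have hnil := fun x hx k hk => Cfsg.Agent.Lib.Helper80.AS.no_nilpotent Γ hirr E hc hnorm x hx k hk
    rcases Cfsg.Agent.Lib.Helper80.AS.field_or_idempotent E hc hnil with hfld | ⟨e₀, he₀, hid₀, h0, h1'⟩
    · by_cases hd1 : Module.finrank F E = 1
      · exact Or.inr (isScal_of_finrank_one hn E hd1)
      · left
        have hpos : 0 < Module.finrank F E := by
          haveI : Nonempty (Fin n) := ⟨⟨0, hn⟩⟩
          exact Module.finrank_pos
        by_cases h2 : 2 ∣ Module.finrank F E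
        · obtain ⟨K', hK', hmem⟩ := Cfsg.Agent.Lib.Helper80.AS.exists_subfield_alg E _ 2 hfld hpos h2
          exact (no_even_field q hF hn K' hK' (subfield_alg_adj_U q hF E K' _ hmem hadj)).elim
        · have hr : (Module.finrank F E).minFac.Prime := Nat.minFac_prime hd1
          have hrd := Nat.minFac_dvd (Module.finrank F E)
          obtain ⟨K', hK', hmem⟩ := Cfsg.Agent.Lib.Helper80.AS.exists_subfield_alg E _ _ hfld hpos hrd
          refine Or.inr (Or.inr (Or.inr (Or.inr (Or.inl ⟨_, K', hr, ?_, hK',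
            subfield_alg_adj_U q hF E K' _ hmem hadj,
            hnorm.trans (Cfsg.Agent.Lib.Helper80.AS.subfield_alg_norm E K' _ hmem)⟩))))
          rcases hr.eq_two_or_odd' with h | h
          · exact absurd (h ▸ hrd) h2
          · exact h
    · left
      obtain ⟨t, d, D, hD, hle, hp⟩ := idem_decomp Γ hirr
        {e | e ∈ E ∧ e * e = e} (fun e he => he.2)
        (fun e he e' he' => hc e he.1 e' he'.1)
        (fun e he e' he' => ⟨E.mul_mem he.1 he'.1, by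
          rw [mul_assoc, ← mul_assoc e' e e', hc e' he'.1 e he.1, mul_assoc e e' e', he'.2, ← mul_assoc, he.2]⟩)
        (fun g hg e he => ⟨((hnorm hg) e).1 he.1, conj_idem g e he.2⟩)
        e₀ ⟨he₀, hid₀⟩ h0 h1'
      have hP : Projs E D := fun j => by
        obtain ⟨e, he, h2, h3⟩ := hp j
        exact ⟨e, he.1, h2, h3⟩
      obtain ⟨rfl, hts⟩ := ts_pair_U q hF hn E hc hadj (fun x hx hxx hsa => by
        by_contra hcon
        push Not at hcon
        exact h1 ⟨x, hx, hxx, hsa, hcon.1, hcon.2⟩) D hD hP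
      exact Or.inr (Or.inr (Or.inr (Or.inl ⟨d, D, hD, hts, hle⟩)))

end Cfsg.Agent.Lib.Helper47.UC
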