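import Cfsg.Agent.Lib.Helper47.UC.Defs
import Cfsg.Agent.Lib.Helper32.AschU.GRAM

set_option autoImplicit false

namespace Cfsg.Agent.Lib.Helper47.UC

open Cfsg Cfsg.Geo
open Cfsg.Agent.Lib.Helper77.Asch (NormBy MinOver)
open Cfsg.Agent.Lib.Helper80.AS (env cen IsScal IsComm SelfAdj Projs tmat IsLeftFactor)
open Cfsg.Agent.Lib.Helper32.AschU (SUg IsTv gram)
open scoped MatrixGroups Matrix Kronecker

variable {n : ℕ} {F : Type*} [Field F]

-- RUNG TG4
/-- TG4.  `Helper32.AschU.gram_apply` (GRAM.lean): `f (P u) (P v) = u ⬝ᵥ (gram q P *ᵥ v^(q))`; unfold `formOfGram`, `tgram`, `dotProduct`, `mulVec`, reindex both sums along `e` (`Equiv.sum_comp`), `Finset.mul_sum`, `mul_assoc`. -/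
theorem tgram_apply [Fintype F] (q : ℕ) (hF : Fintype.card F = q ^ 2) {s k : ℕ} (e : Fin n ≃ Fin s × Fin k)
    (P : GL (Fin n) F) (x y : Fin s × Fin k → F) :
    hermForm n F q ((P : Matrix (Fin n) (Fin n) F) *ᵥ (x ∘ e)) ((P : Matrix (Fin n) (Fin n) F) *ᵥ (y ∘ e)) =
      formOfGram (fun a : F => a ^ q) (tgram q e P) x y := by
  rw [Cfsg.Agent.Lib.Helper32.AschU.gram_apply q hF]
  unfold formOfGram tgram
  simp only [dotProduct, Matrix.mulVec, Function.comp, Matrix.submatrix_apply]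
  rw [← Equiv.sum_comp e]
  refine Finset.sum_congr rfl fun i _ => ?_
  rw [Finset.mul_sum, ← Equiv.sum_comp e]
  refine Finset.sum_congr rfl fun j _ => ?_
  simp [mul_assoc]

end Cfsg.Agent.Lib.Helper47.UC
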