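import Cfsg.Agent.Lib.Helper47.UC.Defs
import Cfsg.Agent.Lib.Helper47.UC.TG4
import Cfsg.Agent.Lib.Helper80.AS.TMUL

set_option autoImplicit false

namespace Cfsg.Agent.Lib.Helper47.UC

open Cfsg Cfsg.Geo
open Cfsg.Agent.Lib.Helper77.Asch (NormBy MinOver)
open Cfsg.Agent.Lib.Helper80.AS (env cen IsScal IsComm SelfAdj Projs tmat IsLeftFactor)
open Cfsg.Agent.Lib.Helper32.AschU (SUg IsTv gram)
open scoped MatrixGroups Matrix Kronecker

variable {n : ℕ} {F : Type*} [Field F]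

theorem tg0_form_single (q : ℕ) (hq : q ≠ 0) {κ : Type} [Fintype κ] [DecidableEq κ]
    (G : Matrix κ κ F) (x : κ → F) (j : κ) :
    formOfGram (fun a : F => a ^ q) G x (Pi.single j 1) = ∑ a, x a * G a j := by
  unfold formOfGram
  refine Finset.sum_congr rfl fun a _ => ?_
  rw [Finset.sum_eq_single j]
  · simp
  · intro b _ hb
    simp [Pi.single_eq_of_ne hb, hq]
  · simp

theorem tg0_single_form (σ : F → F) {κ : Type} [Fintype κ] [DecidableEq κ]
    (G : Matrix κ κ F) (i : κ) (y : κ → F) :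
    formOfGram σ G (Pi.single i 1) y = ∑ b, G i b * σ (y b) := by
  unfold formOfGram
  rw [Finset.sum_eq_single i]
  · simp
  · intro a _ ha
    simp [Pi.single_eq_of_ne ha]
  · simp

-- RUNG TG0
theorem tgram_adj [Fintype F] (q : ℕ) (hF : Fintype.card F = q ^ 2) {s k : ℕ}
    (B : Subalgebra F (Matrix (Fin n) (Fin n) F)) (e : Fin n ≃ Fin s × Fin k) (P : GL (Fin n) F)
    (hB : IsLeftFactor B e P) (hadj : IsAdjointClosedFor (hermForm n F q) B)
    (x : Matrix (Fin s) (Fin s) F) :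
    ∃ x' : Matrix (Fin s) (Fin s) F,
      (x ⊗ₖ (1 : Matrix (Fin k) (Fin k) F))ᵀ * tgram q e P = tgram q e P * (x' ⊗ₖ (1 : Matrix (Fin k) (Fin k) F)) := by
  classical
  have hq : q ≠ 0 := by
    rintro rfl
    have : 1 < Fintype.card F := Fintype.one_lt_card
    rw [hF] at this
    simp at this
  obtain ⟨y', hy'B, hy'⟩ := hadj _ ((hB _).2 ⟨x, rfl⟩)
  obtain ⟨x'', rfl⟩ := (hB _).1 hy'B
  refine ⟨x''.map (· ^ q), ?_⟩
  have hk : (x''.map (· ^ q)) ⊗ₖ (1 : Matrix (Fin k) (Fin k) F)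
      = (x'' ⊗ₖ (1 : Matrix (Fin k) (Fin k) F)).map (· ^ q) := by
    ext ⟨a, b⟩ ⟨c, d⟩
    simp only [Matrix.kroneckerMap_apply, Matrix.map_apply, mul_pow]
    by_cases hbd : b = d
    · subst hbd; simp
    · simp [Matrix.one_apply_ne hbd, hq]
  rw [hk]
  ext i j
  have h := hy' ((P : Matrix (Fin n) (Fin n) F) *ᵥ ((Pi.single i 1 : Fin s × Fin k → F) ∘ e))
    ((P : Matrix (Fin n) (Fin n) F) *ᵥ ((Pi.single j 1 : Fin s × Fin k → F) ∘ e))
  rw [Cfsg.Agent.Lib.Helper80.AS.tmat_mulVec, Cfsg.Agent.Lib.Helper80.AS.tmat_mulVec,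
    tgram_apply q hF, tgram_apply q hF, tg0_form_single q hq, tg0_single_form] at h
  rw [Matrix.mul_apply, Matrix.mul_apply]
  simp only [Matrix.transpose_apply, Matrix.map_apply]
  simpa [Matrix.mulVec_single_one] using h

end Cfsg.Agent.Lib.Helper47.UC
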