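import Cfsg.Agent.Lib.Helper47.UC.Defs

set_option autoImplicit false

namespace Cfsg.Agent.Lib.Helper47.UC

open Cfsg Cfsg.Geo
open Cfsg.Agent.Lib.Helper77.Asch (NormBy MinOver)
open Cfsg.Agent.Lib.Helper80.AS (env cen IsScal IsComm SelfAdj Projs tmat IsLeftFactor)
open Cfsg.Agent.Lib.Helper32.AschU (SUg IsTv gram)
open scoped MatrixGroups Matrix Kronecker

variable {n : ℕ} {F : Type*} [Field F]

/-- the `(j,l)` block -/
def tg1B {s k : ℕ} (G : Matrix (Fin s × Fin k) (Fin s × Fin k) F) (j l : Fin k) :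
    Matrix (Fin s) (Fin s) F := Matrix.of fun a b => G (a, j) (b, l)

theorem tg1_blk {s k : ℕ} (G : Matrix (Fin s × Fin k) (Fin s × Fin k) F)
    (x x' : Matrix (Fin s) (Fin s) F)
    (h : (x ⊗ₖ (1 : Matrix (Fin k) (Fin k) F))ᵀ * G = G * (x' ⊗ₖ (1 : Matrix (Fin k) (Fin k) F)))
    (j l : Fin k) : xᵀ * tg1B G j l = tg1B G j l * x' := by
  ext a b
  have h1 := congrFun (congrFun h (a, j)) (b, l)
  simp only [Matrix.mul_apply, Fintype.sum_prod_type, Matrix.transpose_apply,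
    Matrix.kroneckerMap_apply, Matrix.one_apply, mul_ite, ite_mul, mul_one, mul_zero, zero_mul,
    Finset.sum_ite_eq', Finset.mem_univ, if_true] at h1
  simp only [Matrix.mul_apply, Matrix.transpose_apply, tg1B, Matrix.of_apply]
  exact h1

theorem tg1_scalar {s : ℕ} (C : Matrix (Fin s) (Fin s) F) (h : ∀ y : Matrix (Fin s) (Fin s) F, y * C = C * y) :
    ∃ c : F, C = c • (1 : Matrix (Fin s) (Fin s) F) := by
  have h2 : C ∈ Subalgebra.center F (Matrix (Fin s) (Fin s) F) := by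
    rw [Subalgebra.mem_center_iff]
    exact h
  rw [Algebra.IsCentral.center_eq_bot, Algebra.mem_bot] at h2
  obtain ⟨c, hc⟩ := h2
  exact ⟨c, by rw [← hc, Algebra.algebraMap_eq_smul_one]⟩

-- RUNG TG1
/-- TG1 (pure matrix algebra, any field). -/
theorem kron_factor {s k : ℕ} (G : Matrix (Fin s × Fin k) (Fin s × Fin k) F)
    (h : ∀ x : Matrix (Fin s) (Fin s) F, ∃ x' : Matrix (Fin s) (Fin s) F,
      (x ⊗ₖ (1 : Matrix (Fin k) (Fin k) F))ᵀ * G = G * (x' ⊗ₖ (1 : Matrix (Fin k) (Fin k) F))) :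
    ∃ (J₁ : Matrix (Fin s) (Fin s) F) (J₂ : Matrix (Fin k) (Fin k) F), G = J₁ ⊗ₖ J₂ := by
  by_cases hG : ∀ j l, tg1B G j l = 0
  · refine ⟨0, 0, ?_⟩
    ext ⟨a, j⟩ ⟨b, l⟩
    have := congrFun (congrFun (hG j l) a) b
    simpa [tg1B] using this
  push Not at hG
  obtain ⟨j₀, l₀, hJ⟩ := hG
  obtain ⟨J, hJdef⟩ : ∃ J, J = tg1B G j₀ l₀ := ⟨_, rfl⟩
  rw [← hJdef] at hJ
  have hdet : J.det ≠ 0 := by
    intro hd
    obtain ⟨u, hu0, hu⟩ := Matrix.exists_vecMul_eq_zero_iff.mpr hd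
    apply hJ
    obtain ⟨i, hi⟩ : ∃ i, u i ≠ 0 := by
      by_contra hcon
      push Not at hcon
      exact hu0 (funext hcon)
    ext p b
    obtain ⟨x', hx'⟩ := h (Matrix.vecMulVec (Pi.single p 1) (Pi.single i (u i)⁻¹))
    have h1 := tg1_blk G _ x' hx' j₀ l₀
    rw [← hJdef] at h1
    have h2 : (Matrix.vecMulVec (Pi.single p (1 : F)) (Pi.single i (u i)⁻¹)) *ᵥ u = Pi.single p 1 := by
      rw [Matrix.vecMulVec_mulVec]
      have h3 : (Pi.single i (u i)⁻¹ : Fin s → F) ⬝ᵥ u = 1 := by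
        rw [single_dotProduct, inv_mul_cancel₀ hi]
      rw [h3]
      simp
    have h4 : (Pi.single p (1 : F) : Fin s → F) ᵥ* J = 0 := by
      rw [← h2, ← Matrix.vecMul_transpose, Matrix.vecMul_vecMul, h1, ← Matrix.vecMul_vecMul, hu,
        Matrix.zero_vecMul]
    have h5 := congrFun h4 b
    simpa using h5
  have hunit : IsUnit J.det := isUnit_iff_ne_zero.mpr hdet
  have hJJ : J * J⁻¹ = 1 := Matrix.mul_nonsing_inv J hunit
  have hJJ' : J⁻¹ * J = 1 := Matrix.nonsing_inv_mul J hunit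
  have hsc : ∀ j l, ∃ c : F, tg1B G j l * J⁻¹ = c • (1 : Matrix (Fin s) (Fin s) F) := by
    intro j l
    apply tg1_scalar
    intro y
    obtain ⟨x', hx'⟩ := h yᵀ
    have h1 := tg1_blk G _ x' hx' j₀ l₀
    have h2 := tg1_blk G _ x' hx' j l
    rw [← hJdef, Matrix.transpose_transpose] at h1
    rw [Matrix.transpose_transpose] at h2
    have h3 : x' = J⁻¹ * (y * J) := by rw [h1, ← mul_assoc, hJJ', one_mul]
    calc y * (tg1B G j l * J⁻¹) = (y * tg1B G j l) * J⁻¹ := by rw [mul_assoc]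
      _ = tg1B G j l * x' * J⁻¹ := by rw [h2]
      _ = tg1B G j l * J⁻¹ * y * (J * J⁻¹) := by rw [h3]; simp only [mul_assoc]
      _ = tg1B G j l * J⁻¹ * y := by rw [hJJ, mul_one]
  choose c hc using hsc
  refine ⟨J, Matrix.of c, ?_⟩
  ext ⟨a, j⟩ ⟨b, l⟩
  have h1 : tg1B G j l = c j l • J := by
    calc tg1B G j l = tg1B G j l * J⁻¹ * J := by rw [mul_assoc, hJJ', mul_one]
      _ = c j l • J := by rw [hc, Matrix.smul_mul, one_mul]
  have h2 := congrFun (congrFun h1 a) b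
  simp only [tg1B, Matrix.of_apply, Matrix.smul_apply, smul_eq_mul] at h2
  rw [h2, Matrix.kroneckerMap_apply, Matrix.of_apply, mul_comm]

end Cfsg.Agent.Lib.Helper47.UC
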