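import Cfsg.Agent.Lib.Helper47.UC.Defs
import Cfsg.Agent.Lib.Helper17.Herm

set_option autoImplicit false

namespace Cfsg.Agent.Lib.Helper47.UC

open Cfsg Cfsg.Geo
open Cfsg.Agent.Lib.Helper77.Asch (NormBy MinOver)
open Cfsg.Agent.Lib.Helper80.AS (env cen IsScal IsComm SelfAdj Projs tmat IsLeftFactor)
open Cfsg.Agent.Lib.Helper32.AschU (SUg IsTv gram)
open Cfsg.Agent.Lib.Helper17 (two_le_of_card_sq add_pow_q pow_q_pow_q)
open scoped MatrixGroups Matrix Kronecker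

variable {n : ℕ} {F : Type*} [Field F]

theorem tg2_exists_pow_ne [Fintype F] (q : ℕ) (hF : Fintype.card F = q ^ 2) : ∃ θ : F, θ ^ q ≠ θ := by
  classical
  by_contra hcon
  push Not at hcon
  have hq1 : 1 < q := two_le_of_card_sq hF
  have hne : (Polynomial.X ^ q - Polynomial.X : Polynomial F) ≠ 0 :=
    FiniteField.X_pow_card_sub_X_ne_zero F hq1
  have hdeg : (Polynomial.X ^ q - Polynomial.X : Polynomial F).natDegree = q :=
    FiniteField.X_pow_card_sub_X_natDegree_eq F hq1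
  have hsub : (Finset.univ : Finset F) ⊆ (Polynomial.X ^ q - Polynomial.X : Polynomial F).roots.toFinset := by
    intro b _
    rw [Multiset.mem_toFinset, Polynomial.mem_roots hne, Polynomial.IsRoot.def]
    simp [hcon b]
  have h1 := Finset.card_le_card hsub
  have h2 : (Polynomial.X ^ q - Polynomial.X : Polynomial F).roots.toFinset.card ≤ q := by
    calc _ ≤ Multiset.card (Polynomial.X ^ q - Polynomial.X : Polynomial F).roots :=
          Multiset.toFinset_card_le _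
      _ ≤ (Polynomial.X ^ q - Polynomial.X : Polynomial F).natDegree := Polynomial.card_roots' _
      _ = q := hdeg
  rw [Finset.card_univ, hF] at h1
  nlinarith

/-- Hilbert 90 by hand -/
theorem tg2_h90 [Fintype F] (q : ℕ) (hF : Fintype.card F = q ^ 2) (lam : F) (hl : lam ^ q * lam = 1) :
    ∃ μ : F, μ ≠ 0 ∧ μ ^ q * lam = μ := by
  have key : ∀ θ : F, (θ + θ ^ q * lam) ^ q * lam = θ + θ ^ q * lam := by
    intro θ
    rw [add_pow_q hF, mul_pow, pow_q_pow_q hF, add_mul, mul_assoc, hl, mul_one, add_comm]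
  by_cases h1 : (1 : F) + lam = 0
  · obtain ⟨θ, hθ⟩ := tg2_exists_pow_ne q hF
    refine ⟨θ + θ ^ q * lam, ?_, key θ⟩
    have h2 : lam = -1 := by linear_combination h1
    rw [h2]
    intro h3
    apply hθ
    linear_combination -h3
  · refine ⟨1 + 1 ^ q * lam, ?_, key 1⟩
    rw [one_pow, one_mul]
    exact h1

-- RUNG TG2
/-- TG2. -/
theorem herm_scale [Fintype F] (q : ℕ) (hF : Fintype.card F = q ^ 2) {s k : ℕ} (hs : 0 < s) (hk : 0 < k)
    (J₁ : Matrix (Fin s) (Fin s) F) (J₂ : Matrix (Fin k) (Fin k) F)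
    (hu : IsUnit (J₁ ⊗ₖ J₂)) (hh : (J₁ ⊗ₖ J₂)ᵀ = (J₁ ⊗ₖ J₂).map (· ^ q)) :
    ∃ (J₁' : Matrix (Fin s) (Fin s) F) (J₂' : Matrix (Fin k) (Fin k) F), J₁ ⊗ₖ J₂ = J₁' ⊗ₖ J₂' ∧
      IsUnit J₁' ∧ IsUnit J₂' ∧ J₁'ᵀ = J₁'.map (· ^ q) ∧ J₂'ᵀ = J₂'.map (· ^ q) := by
  have hq0 : q ≠ 0 := by have := two_le_of_card_sq hF; omega
  have hE : ∀ a b j l, J₁ b a * J₂ l j = (J₁ a b) ^ q * (J₂ j l) ^ q := by
    intro a b j l
    have := congrFun (congrFun hh (a, j)) (b, l)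
    simp only [Matrix.transpose_apply, Matrix.kroneckerMap_apply, Matrix.map_apply, mul_pow] at this
    exact this
  rw [Matrix.isUnit_iff_isUnit_det, Matrix.det_kronecker, isUnit_iff_ne_zero] at hu
  have hd1 : J₁.det ≠ 0 := by
    intro h
    apply hu
    rw [h, Fintype.card_fin, Fintype.card_fin, zero_pow hk.ne', zero_mul]
  have hd2 : J₂.det ≠ 0 := by
    intro h
    apply hu
    rw [h, Fintype.card_fin, Fintype.card_fin, zero_pow hs.ne', mul_zero]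
  obtain ⟨a₀, b₀, hab⟩ : ∃ a b, J₁ a b ≠ 0 := by
    by_contra hcon
    push Not at hcon
    apply hd1
    have : J₁ = 0 := by ext a b; exact hcon a b
    have : Nonempty (Fin s) := ⟨⟨0, hs⟩⟩
    rw [‹J₁ = 0›, Matrix.det_zero]
  obtain ⟨j₀, l₀, hjl⟩ : ∃ j l, J₂ j l ≠ 0 := by
    by_contra hcon
    push Not at hcon
    apply hd2
    have : J₂ = 0 := by ext a b; exact hcon a b
    have : Nonempty (Fin k) := ⟨⟨0, hk⟩⟩
    rw [‹J₂ = 0›, Matrix.det_zero]
  have h0 := hE a₀ b₀ j₀ l₀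
  have hne : J₁ b₀ a₀ * J₂ l₀ j₀ ≠ 0 := by
    rw [h0]; exact mul_ne_zero (pow_ne_zero _ hab) (pow_ne_zero _ hjl)
  have hba : J₁ b₀ a₀ ≠ 0 := left_ne_zero_of_mul hne
  have hlj : J₂ l₀ j₀ ≠ 0 := right_ne_zero_of_mul hne
  obtain ⟨lam, hlam⟩ : ∃ lam, lam = J₂ l₀ j₀ / (J₂ j₀ l₀) ^ q := ⟨_, rfl⟩
  have hpq : (J₂ j₀ l₀) ^ q ≠ 0 := pow_ne_zero _ hjl
  have hH1 : ∀ a b, (J₁ a b) ^ q = lam * J₁ b a := by
    intro a b
    have := hE a b j₀ l₀
    rw [hlam]
    field_simp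
    linear_combination -this
  have hN : lam ^ q * lam = 1 := by
    have h1 : ((J₁ a₀ b₀) ^ q) ^ q = J₁ a₀ b₀ := pow_q_pow_q hF _
    rw [hH1, mul_pow, hH1] at h1
    have h2 : (lam ^ q * lam - 1) * J₁ a₀ b₀ = 0 := by linear_combination h1
    rcases mul_eq_zero.mp h2 with h3 | h3
    · exact sub_eq_zero.mp h3
    · exact absurd h3 hab
  have hH2 : ∀ j l, J₂ l j = lam * (J₂ j l) ^ q := by
    intro j l
    have h1 := hE a₀ b₀ j l
    rw [hH1] at h1
    have h2 : J₁ b₀ a₀ * (J₂ l j - lam * (J₂ j l) ^ q) = 0 := by linear_combination h1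
    rcases mul_eq_zero.mp h2 with h3 | h3
    · exact absurd h3 hba
    · exact sub_eq_zero.mp h3
  obtain ⟨μ, hμ0, hμ⟩ := tg2_h90 q hF lam hN
  refine ⟨μ • J₁, μ⁻¹ • J₂, ?_, ?_, ?_, ?_, ?_⟩
  · rw [Matrix.smul_kronecker, Matrix.kronecker_smul, smul_smul, mul_inv_cancel₀ hμ0, one_smul]
  · rw [Matrix.isUnit_iff_isUnit_det, Matrix.det_smul, isUnit_iff_ne_zero]
    exact mul_ne_zero (pow_ne_zero _ hμ0) hd1
  · rw [Matrix.isUnit_iff_isUnit_det, Matrix.det_smul, isUnit_iff_ne_zero]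
    exact mul_ne_zero (pow_ne_zero _ (inv_ne_zero hμ0)) hd2
  · ext a b
    simp only [Matrix.transpose_apply, Matrix.smul_apply, smul_eq_mul, Matrix.map_apply, mul_pow]
    rw [hH1]
    linear_combination (-J₁ b a) * hμ
  · ext j l
    simp only [Matrix.transpose_apply, Matrix.smul_apply, smul_eq_mul, Matrix.map_apply, mul_pow]
    rw [hH2, inv_pow]
    have hμq : μ ^ q ≠ 0 := pow_ne_zero _ hμ0
    field_simp
    linear_combination (J₂ j l ^ q) * hμ

end Cfsg.Agent.Lib.Helper47.UC
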