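import Cfsg.Agent.Lib.Helper47.UC.Defs
import Cfsg.Agent.Lib.Helper17.Herm

set_option autoImplicit false

namespace Cfsg.Agent.Lib.Helper47.UC

open Cfsg Cfsg.Geo
open Cfsg.Agent.Lib.Helper77.Asch (NormBy MinOver)
open Cfsg.Agent.Lib.Helper80.AS (env cen IsScal IsComm SelfAdj Projs tmat IsLeftFactor)
open Cfsg.Agent.Lib.Helper32.AschU (SUg IsTv gram)
open scoped MatrixGroups Matrix Kronecker

variable {n : ℕ} {F : Type*} [Field F]

/-- the form with Gram matrix `J` as a dot product. -/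
theorem tg3_dot (q : ℕ) {m : ℕ} (J : Matrix (Fin m) (Fin m) F) (x y : Fin m → F) :
    formOfGram (fun a : F => a ^ q) J x y = x ⬝ᵥ (J *ᵥ (fun b => y b ^ q)) := by
  unfold formOfGram
  simp only [dotProduct, Matrix.mulVec]
  refine Finset.sum_congr rfl fun a _ => ?_
  rw [Finset.mul_sum]
  refine Finset.sum_congr rfl fun b _ => ?_
  rw [mul_assoc]

theorem tg3_herm [Fintype F] (q : ℕ) (hF : Fintype.card F = q ^ 2) {m : ℕ}
    (J : Matrix (Fin m) (Fin m) F) (hh : Jᵀ = J.map (· ^ q)) (x y : Fin m → F) :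
    formOfGram (fun a : F => a ^ q) J x y = (formOfGram (fun a : F => a ^ q) J y x) ^ q := by
  have hJ : ∀ a b, (J a b) ^ q = J b a := fun a b => by
    have := congrFun (congrFun hh a) b
    simp only [Matrix.transpose_apply, Matrix.map_apply] at this
    exact this.symm
  unfold formOfGram
  rw [Cfsg.Agent.Lib.Helper17.sum_pow_q hF, Finset.sum_comm]
  refine Finset.sum_congr rfl fun b _ => ?_
  rw [Cfsg.Agent.Lib.Helper17.sum_pow_q hF]
  refine Finset.sum_congr rfl fun a _ => ?_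
  rw [mul_pow, mul_pow, Cfsg.Agent.Lib.Helper17.pow_q_pow_q hF, hJ]
  ring

-- RUNG TG3
/-- TG3.  `formOfGram σ J x y = ∑ a, ∑ b, x a * J a b * (y b)^q`.  Linear on the left: `Finset.sum_add_distrib`, `Finset.mul_sum`.  `herm`: `(∑∑ y b * J b a * (x a)^q)^q = ∑∑ (y b)^q * (J b a)^q * x a` (`Helper17.sum_pow_q`, `pow_q_pow_q`), `(J b a)^q = J a b`, `Finset.sum_comm`.
Non-degenerate: `formOfGram σ J x y = x ⬝ᵥ (J *ᵥ y^(q))`, `J` invertible, `y ≠ 0 ⇒ y^(q) ≠ 0 ⇒ J y^(q) ≠ 0`: test with `x = Pi.single`; the other side by `herm`.  `gramMatrix`: `Pi.single` sums collapse, `1^q = 1`. -/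
theorem formOfGram_unitary [Fintype F] (q : ℕ) (hF : Fintype.card F = q ^ 2) {m : ℕ}
    (J : Matrix (Fin m) (Fin m) F) (hu : IsUnit J) (hh : Jᵀ = J.map (· ^ q)) :
    IsUnitaryFormPow q (formOfGram (fun a : F => a ^ q) J) ∧
      gramMatrix (formOfGram (fun a : F => a ^ q) J) = J := by
  have hq : 2 ≤ q := Cfsg.Agent.Lib.Helper17.two_le_of_card_sq hF
  have hq0 : q ≠ 0 := by omega
  have hleft : ∀ v : Fin m → F, v ≠ 0 → ∃ x, formOfGram (fun a : F => a ^ q) J x v ≠ 0 := by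
    intro v hv
    have hv' : (fun b => v b ^ q) ≠ (0 : Fin m → F) := by
      intro h0
      apply hv
      funext b
      have := congrFun h0 b
      simpa using pow_eq_zero_iff hq0 |>.mp this
    have hJv : J *ᵥ (fun b => v b ^ q) ≠ 0 := by
      intro h0
      apply hv'
      obtain ⟨u, rfl⟩ := hu
      have h1 : ((u⁻¹ : (Matrix (Fin m) (Fin m) F)ˣ) : Matrix (Fin m) (Fin m) F) *ᵥ
          ((u : Matrix (Fin m) (Fin m) F) *ᵥ (fun b => v b ^ q)) = 0 := by
        rw [h0, Matrix.mulVec_zero]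
      rwa [Matrix.mulVec_mulVec, Units.inv_mul, Matrix.one_mulVec] at h1
    obtain ⟨a, ha⟩ := Function.ne_iff.mp hJv
    refine ⟨Pi.single a 1, ?_⟩
    rw [tg3_dot, single_dotProduct, one_mul]
    exact ha
  refine ⟨⟨?_, ?_, tg3_herm q hF J hh, ?_⟩, ?_⟩
  · intro x y v
    rw [tg3_dot, tg3_dot, tg3_dot, add_dotProduct]
  · intro c x v
    rw [tg3_dot, tg3_dot, smul_dotProduct, smul_eq_mul]
  · intro v hv
    refine ⟨hleft v hv, ?_⟩
    obtain ⟨x, hx⟩ := hleft v hv
    refine ⟨x, ?_⟩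
    rw [tg3_herm q hF J hh]
    exact pow_ne_zero _ hx
  · funext a b
    unfold gramMatrix
    rw [tg3_dot, single_dotProduct, one_mul]
    have : (fun c => (Pi.single b (1 : F) : Fin m → F) c ^ q) = Pi.single b 1 := by
      funext c
      by_cases hc : c = b
      · subst hc; simp
      · simp [Pi.single_eq_of_ne hc, hq0]
    rw [this, Matrix.mulVec_single_one]
    rfl

end Cfsg.Agent.Lib.Helper47.UC
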