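import Cfsg.Agent.Lib.Helper47.UC.Defs
import Cfsg.Agent.Lib.Helper77.Asch.RED
import Cfsg.Agent.Lib.Helper17.SUNondegB
import Cfsg.Agent.Lib.Helper97.HermGlue

set_option autoImplicit false

namespace Cfsg.Agent.Lib.Helper47.UC

open Cfsg Cfsg.Geo
open Cfsg.Agent.Lib.Helper77.Asch (NormBy MinOver)
open Cfsg.Agent.Lib.Helper80.AS (env cen IsScal IsComm SelfAdj Projs tmat IsLeftFactor)
open Cfsg.Agent.Lib.Helper32.AschU (SUg IsTv gram)
open scoped MatrixGroups Matrix Kronecker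

variable {n : ℕ} {F : Type*} [Field F]

theorem ured2_map_eq (H : Subgroup (GL (Fin n) F)) (W : Submodule F (Fin n → F))
    (hW : H ≤ subspaceStabilizer W) (g : GL (Fin n) F) (hg : g ∈ H) :
    W.map (Matrix.toLin' (g : Matrix (Fin n) (Fin n) F)) = W := by
  have hstab : ∀ g ∈ H, ∀ v : Fin n → F, v ∈ W ↔ (g : Matrix (Fin n) (Fin n) F) *ᵥ v ∈ W :=
    fun g hg v => hW hg v
  apply le_antisymm
  · rintro _ ⟨v, hv, rfl⟩
    rw [Matrix.toLin'_apply]
    exact (hstab g hg v).1 hv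
  · intro w hw
    refine ⟨((g⁻¹ : GL (Fin n) F) : Matrix (Fin n) (Fin n) F) *ᵥ w,
      (hstab g⁻¹ (H.inv_mem hg) w).1 hw, ?_⟩
    rw [Matrix.toLin'_apply, Matrix.mulVec_mulVec, ← Units.val_mul, mul_inv_cancel, Units.val_one,
      Matrix.one_mulVec]

-- RUNG URED2
/-- URED2 (= Helper32/AschU/URED.lean without `Odd n`, one more case). -/
theorem ured2 [Fintype F] (q : ℕ) (hF : Fintype.card F = q ^ 2) (H : Subgroup (GL (Fin n) F))
    (hH : H ≤ GU n F q) (h : ¬ ActsIrreducibly (matrixSet H)) : InGeoV q H := by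
  obtain ⟨W₀, h0, h1, hW⟩ := Cfsg.Agent.Lib.Helper77.Asch.red H h
  have h := Cfsg.Agent.Lib.Helper97.hermUF hF n
  have hpres : ∀ g ∈ H, ∀ u v : Fin n → F,
      hermForm n F q ((g : Matrix (Fin n) (Fin n) F) *ᵥ u) ((g : Matrix (Fin n) (Fin n) F) *ᵥ v) =
        hermForm n F q u v := fun g hg u v => hH hg u v
  have hstab : ∀ g ∈ H, ∀ v : Fin n → F, v ∈ W₀ ↔ (g : Matrix (Fin n) (Fin n) F) *ᵥ v ∈ W₀ :=
    fun g hg v => hW hg v
  have hgg : ∀ (g : GL (Fin n) F) (w : Fin n → F),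
      (g : Matrix (Fin n) (Fin n) F) *ᵥ (((g⁻¹ : GL (Fin n) F) : Matrix (Fin n) (Fin n) F) *ᵥ w) = w := by
    intro g w
    rw [Matrix.mulVec_mulVec, ← Units.val_mul, mul_inv_cancel, Units.val_one, Matrix.one_mulVec]
  have hinv : H ≤ subspaceStabilizer (Cfsg.Agent.Lib.Helper17.SUNondeg.perp h W₀) := by
    intro g hg v
    show v ∈ Cfsg.Agent.Lib.Helper17.SUNondeg.perp h W₀ ↔
      (g : Matrix (Fin n) (Fin n) F) *ᵥ v ∈ Cfsg.Agent.Lib.Helper17.SUNondeg.perp h W₀
    rw [Cfsg.Agent.Lib.Helper17.SUNondeg.mem_perp, Cfsg.Agent.Lib.Helper17.SUNondeg.mem_perp]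
    constructor
    · intro hv w hw
      have hw' : ((g⁻¹ : GL (Fin n) F) : Matrix (Fin n) (Fin n) F) *ᵥ w ∈ W₀ :=
        (hstab g⁻¹ (H.inv_mem hg) w).1 hw
      rw [← hgg g w, hpres g hg]
      exact hv _ hw'
    · intro hv w hw
      rw [← hpres g hg]
      exact hv _ ((hstab g hg w).1 hw)
  have hnd : ∀ W : Submodule F (Fin n → F), Cfsg.Agent.Lib.Helper17.SUNondeg.NDOn (hermForm n F q) W →
      IsNondegenerateOn (hermForm n F q) W := by
    intro W hWn w hw hw0
    obtain ⟨x, hx, hxw⟩ := hWn w hw hw0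
    exact ⟨⟨x, hx, hxw⟩, ⟨x, hx, Cfsg.Agent.Lib.Helper97.ne_zero_comm' h hxw⟩⟩
  by_cases hU : W₀ ⊓ Cfsg.Agent.Lib.Helper17.SUNondeg.perp h W₀ = ⊥
  · have hND : Cfsg.Agent.Lib.Helper17.SUNondeg.NDOn (hermForm n F q) W₀ := by
      intro w hw hw0
      by_contra hcon
      push Not at hcon
      apply hw0
      have : w ∈ W₀ ⊓ Cfsg.Agent.Lib.Helper17.SUNondeg.perp h W₀ :=
        ⟨hw, fun x hx => Cfsg.Agent.Lib.Helper97.eq_zero_comm' h (hcon x hx)⟩
      rw [hU] at this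
      exact (Submodule.mem_bot F).1 this
    have hc := Cfsg.Agent.Lib.Helper17.SUNondeg.isCompl_perp h hND
    have hNDp := Cfsg.Agent.Lib.Helper17.SUNondeg.ndOn_perp h hND
    have hfr := Cfsg.Agent.Lib.Helper17.SUNondeg.finrank_perp h hND
    rw [Module.finrank_fintype_fun_eq_card, Fintype.card_fin] at hfr
    by_cases h2 : 2 * Module.finrank F W₀ < n
    · exact Or.inr (Or.inl ⟨W₀, h0, hnd _ hND, h2, hW⟩)
    · by_cases h3 : 2 * Module.finrank F (Cfsg.Agent.Lib.Helper17.SUNondeg.perp h W₀) < n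
      · refine Or.inr (Or.inl ⟨_, ?_, hnd _ hNDp, h3, hinv⟩)
        intro hb
        rw [hb] at hc
        exact h1 (by simpa using hc.sup_eq_top)
      · -- the two halves
        have hperp : ∀ u ∈ W₀, ∀ v ∈ Cfsg.Agent.Lib.Helper17.SUNondeg.perp h W₀,
            hermForm n F q u v = 0 := by
          intro u hu v hv
          exact Cfsg.Agent.Lib.Helper97.eq_zero_comm' h
            ((Cfsg.Agent.Lib.Helper17.SUNondeg.mem_perp h).1 hv u hu)
        refine Or.inr (Or.inr (Or.inl ⟨2, Module.finrank F W₀,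
          ![W₀, Cfsg.Agent.Lib.Helper17.SUNondeg.perp h W₀], ⟨⟨le_refl 2, ?_, ?_, ?_, ?_⟩, ?_, ?_⟩, ?_⟩))
        · exact Nat.pos_of_ne_zero (fun h00 => h0 (Submodule.finrank_eq_zero.1 h00))
        · intro i
          fin_cases i
          · rfl
          · change Module.finrank F (Cfsg.Agent.Lib.Helper17.SUNondeg.perp h W₀) = _
            omega
        · rw [iSupIndep_pair (i := (0 : Fin 2)) (j := 1) (by decide)
            (by intro k; fin_cases k <;> simp)]
          exact hc.disjoint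
        · rw [eq_top_iff, ← hc.sup_eq_top]
          exact sup_le (le_iSup ![W₀, Cfsg.Agent.Lib.Helper17.SUNondeg.perp h W₀] 0)
            (le_iSup ![W₀, Cfsg.Agent.Lib.Helper17.SUNondeg.perp h W₀] 1)
        · intro i
          fin_cases i
          · exact hnd _ hND
          · exact hnd _ hNDp
        · intro i j hij
          fin_cases i <;> fin_cases j
          · exact absurd rfl hij
          · exact hperp
          · intro u hu v hv
            exact Cfsg.Agent.Lib.Helper97.eq_zero_comm' h (hperp v hv u hu)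
          · exact absurd rfl hij
        · intro g hg
          refine ⟨1, fun i => ?_⟩
          fin_cases i
          · exact ured2_map_eq H _ hW g hg
          · exact ured2_map_eq H _ hinv g hg
  · refine Or.inl ⟨_, hU, ?_, ?_⟩
    · intro u hu v hv
      exact hu.2 v hv.1
    · intro g hg v
      have e1 := hstab g hg v
      have e2 : v ∈ Cfsg.Agent.Lib.Helper17.SUNondeg.perp h W₀ ↔
        (g : Matrix (Fin n) (Fin n) F) *ᵥ v ∈ Cfsg.Agent.Lib.Helper17.SUNondeg.perp h W₀ := hinv hg v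
      show v ∈ W₀ ⊓ Cfsg.Agent.Lib.Helper17.SUNondeg.perp h W₀ ↔
        (g : Matrix (Fin n) (Fin n) F) *ᵥ v ∈ W₀ ⊓ Cfsg.Agent.Lib.Helper17.SUNondeg.perp h W₀
      rw [Submodule.mem_inf, Submodule.mem_inf, e1, e2]

end Cfsg.Agent.Lib.Helper47.UC
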