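import Cfsg.Agent.Lib.Helper47.UC.MainA
import Cfsg.Agent.Lib.Helper47.UC.TG0
import Cfsg.Agent.Lib.Helper47.UC.TG1
import Cfsg.Agent.Lib.Helper47.UC.TG2
import Cfsg.Agent.Lib.Helper47.UC.TG3
import Cfsg.Agent.Lib.Helper47.UC.TG4
import Cfsg.Agent.Lib.Helper47.UC.ENVAU
import Cfsg.Agent.Lib.Helper47.UC.CENAU
import Cfsg.Agent.Lib.Helper47.UC.URED2
import Cfsg.Agent.Lib.Helper47.UC.FR2E
import Cfsg.Agent.Lib.Helper47.UC.DESC1S
import Cfsg.Agent.Lib.Helper80.AS.ENVN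
import Cfsg.Agent.Lib.Helper80.AS.CEN
import Cfsg.Agent.Lib.Helper80.AS.TENS
import Cfsg.Agent.Lib.Helper80.AS.TNORM
import Cfsg.Agent.Lib.Helper80.AS.S1K1
import Cfsg.Agent.Lib.Helper80.AS.ENVS
import Cfsg.Agent.Lib.Helper5.AschC.AGK
import Cfsg.Agent.Lib.Helper5.AschC.MINI
import Cfsg.Agent.Lib.Helper5.AschC.QFAC
import Cfsg.Agent.Lib.Helper5.AschC.IDF
import Cfsg.Agent.Lib.Helper5.AschC.NRM
import Cfsg.Agent.Lib.Helper5.AschC.DENS
import Cfsg.Agent.Lib.Helper5.AschC.QGEN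
import Cfsg.Agent.Lib.Helper5.AschC.PW
import Cfsg.Agent.Lib.Helper5.AschC.IND
import Cfsg.Agent.Lib.Helper5.AschC.RGRP
import Cfsg.Agent.Lib.Helper32.AschU.SMA
import Cfsg.Agent.Lib.Helper32.AschU.GRAM
import Cfsg.Agent.Lib.Helper32.AschU.FRO1
import Cfsg.Agent.Lib.Helper32.AschU.FRO2
import Cfsg.Agent.Lib.Helper32.AschU.DESC1
import Cfsg.Agent.Lib.Helper32.AschU.DESC2

set_option autoImplicit false

namespace Cfsg.Agent.Lib.Helper47.UC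

open Cfsg Cfsg.Geo
open Cfsg.Agent.Lib.Helper77.Asch (NormBy MinOver)
open Cfsg.Agent.Lib.Helper80.AS (env cen IsScal IsComm SelfAdj Projs tmat IsLeftFactor)
open Cfsg.Agent.Lib.Helper32.AschU (SUg IsTv gram)
open scoped MatrixGroups Matrix Kronecker

variable {n : ℕ} {F : Type*} [Field F]

theorem tensor_form_U [Fintype F] (q : ℕ) (hF : Fintype.card F = q ^ 2) {s k : ℕ} (hs : 0 < s) (hk : 0 < k)
    (B : Subalgebra F (Matrix (Fin n) (Fin n) F)) (e : Fin n ≃ Fin s × Fin k) (P : GL (Fin n) F)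
    (hB : IsLeftFactor B e P) (hadj : IsAdjointClosedFor (hermForm n F q) B) :
    ∃ (f₁ : (Fin s → F) → (Fin s → F) → F) (f₂ : (Fin k → F) → (Fin k → F) → F),
      IsUnitaryFormPow q f₁ ∧ IsUnitaryFormPow q f₂ ∧
      IsTensorFormStructure (fun x : F => x ^ q) (hermForm n F q) f₁ f₂ e P := by
  obtain ⟨J₁, J₂, hJ⟩ := kron_factor (tgram q e P) (fun x => tgram_adj q hF B e P hB hadj x)
  have hu : IsUnit (tgram q e P) := by
    unfold tgram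
    rw [Matrix.isUnit_submatrix_equiv]
    exact Cfsg.Agent.Lib.Helper32.AschU.gram_isUnit q hF P
  have hh : (tgram q e P)ᵀ = (tgram q e P).map (· ^ q) := by
    unfold tgram
    rw [Matrix.transpose_submatrix, Cfsg.Agent.Lib.Helper32.AschU.gram_herm q hF P]
    rfl
  rw [hJ] at hu hh
  obtain ⟨J₁', J₂', hJ', hu1, hu2, hh1, hh2⟩ := herm_scale q hF hs hk J₁ J₂ hu hh
  obtain ⟨hf1, hg1⟩ := formOfGram_unitary q hF J₁' hu1 hh1
  obtain ⟨hf2, hg2⟩ := formOfGram_unitary q hF J₂' hu2 hh2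
  refine ⟨_, _, hf1, hf2, 1, one_ne_zero, fun x y => ?_⟩
  rw [hg1, hg2, ← hJ', ← hJ, one_mul]
  exact tgram_apply q hF e P x y

theorem tensor_cases_U [Fintype F] (q : ℕ) (hF : Fintype.card F = q ^ 2) (hn : 0 < n) (Γ : Subgroup (GL (Fin n) F))
    (hΓ : Γ ≤ similarityGroup (hermForm n F q)) (hirr : ActsIrreducibly (matrixSet Γ))
    (N : Subgroup (GL (Fin n) F)) (hN : N ≤ Γ) (hnorm : NormBy Γ N) (hcen : IsScal (cen (env N))) :
    InGeoV q Γ ∨ N ≤ scalars (Fin n) F ∨ ActsAbsolutelyIrreducibly (matrixSet N) := by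
  have : Nonempty (Fin n) := ⟨⟨0, hn⟩⟩
  have hen := Cfsg.Agent.Lib.Helper80.AS.env_norm Γ N hnorm
  obtain ⟨s, k, e, P, hB⟩ := Cfsg.Agent.Lib.Helper80.AS.exists_leftFactor Γ hirr (env N) hen hcen
  have hcard : s * k = n := by
    have := Fintype.card_congr e
    simpa using this.symm
  have hs0 : 0 < s := by
    rcases Nat.eq_zero_or_pos s with h | h
    · subst h; omega
    · exact h
  have hk0 : 0 < k := by
    rcases Nat.eq_zero_or_pos k with h | h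
    · subst h; omega
    · exact h
  by_cases hs1 : s = 1
  · subst hs1
    exact Or.inr (Or.inl (Cfsg.Agent.Lib.Helper80.AS.le_scalars_of_env N
      (Cfsg.Agent.Lib.Helper80.AS.scal_of_leftFactor_one (env N) e P hB)))
  by_cases hk1 : k = 1
  · subst hk1
    exact Or.inr (Or.inr (Cfsg.Agent.Lib.Helper80.AS.absIrr_of_env_top N
      (Cfsg.Agent.Lib.Helper80.AS.top_of_leftFactor_one (env N) e P hB)))
  left
  obtain ⟨f₁, f₂, h1, h2, h3⟩ := tensor_form_U q hF hs0 hk0 (env N) e P hB (env_adj_U q hF N (hN.trans hΓ))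
  exact Or.inr (Or.inr (Or.inr (Or.inr (Or.inr (Or.inl ⟨s, k, e, P, f₁, f₂, by omega, by omega, h1, h2, h3,
    hen.trans (Cfsg.Agent.Lib.Helper80.AS.norm_le_tensor (env N) e P hB)⟩)))))

theorem normal_cases_U [Fintype F] (q : ℕ) (hF : Fintype.card F = q ^ 2) (hn : 0 < n) (Γ : Subgroup (GL (Fin n) F))
    (hΓ : Γ ≤ similarityGroup (hermForm n F q)) (hirr : ActsIrreducibly (matrixSet Γ))
    (N : Subgroup (GL (Fin n) F)) (hN : N ≤ Γ) (hnorm : NormBy Γ N) :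
    InGeoV q Γ ∨ N ≤ scalars (Fin n) F ∨ ActsAbsolutelyIrreducibly (matrixSet N) := by
  have hen := Cfsg.Agent.Lib.Helper80.AS.env_norm Γ N hnorm
  rcases comm_cases q hF hn Γ hΓ hirr (cen (env N)) (Cfsg.Agent.Lib.Helper80.AS.cen_comm _)
    (Cfsg.Agent.Lib.Helper80.AS.cen_norm Γ _ hen)
    (cen_adj_U q hF _ (env_adj_U q hF N (hN.trans hΓ))) with h | h
  · exact Or.inl h
  · exact tensor_cases_U q hF hn Γ hΓ hirr N hN hnorm h

theorem InGeoV.mono [Fintype F] {q : ℕ} {H K : Subgroup (GL (Fin n) F)} (h : H ≤ K) (hK : InGeoV q K) :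
    InGeoV q H := by
  rcases hK with ⟨W, h0, h1, h2⟩ | ⟨W, h0, h1, h2, h3⟩ | ⟨t, m, D, h1, h2⟩ | ⟨m, D, h1, h2, h3⟩ |
    ⟨r, A, h1, h2, h3, h4, h5⟩ | ⟨s, k, e, P, f₁, f₂, h1, h2, h3, h4, h5, h6⟩ | ⟨F₀, r, P, h1, h2, h3, h4, h5⟩ |
    ⟨F₀, P, ζ, h1, h2, h3, h4, h5, h6⟩ | ⟨h0, F₀, P, h1, h2, h3⟩
  · exact Or.inl ⟨W, h0, h1, h.trans h2⟩
  · exact Or.inr (Or.inl ⟨W, h0, h1, h2, h.trans h3⟩)
  · exact Or.inr (Or.inr (Or.inl ⟨t, m, D, h1, h.trans h2⟩))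
  · exact Or.inr (Or.inr (Or.inr (Or.inl ⟨m, D, h1, h2, h.trans h3⟩)))
  · exact Or.inr (Or.inr (Or.inr (Or.inr (Or.inl ⟨r, A, h1, h2, h3, h4, h.trans h5⟩))))
  · exact Or.inr (Or.inr (Or.inr (Or.inr (Or.inr (Or.inl ⟨s, k, e, P, f₁, f₂, h1, h2, h3, h4, h5, h.trans h6⟩)))))
  · exact Or.inr (Or.inr (Or.inr (Or.inr (Or.inr (Or.inr (Or.inl ⟨F₀, r, P, h1, h2, h3, h4, h.trans h5⟩))))))
  · exact Or.inr (Or.inr (Or.inr (Or.inr (Or.inr (Or.inr (Or.inr (Or.inl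
      ⟨F₀, P, ζ, h1, h2, h3, h4, h5, h.trans h6⟩)))))))
  · exact Or.inr (Or.inr (Or.inr (Or.inr (Or.inr (Or.inr (Or.inr (Or.inr ⟨h0, F₀, P, h1, h2, h.trans h3⟩)))))))

open Cfsg.Agent.Lib.Helper5.AschC in
theorem twin [Fintype F] (hn : 0 < n) (hpw : ∀ a k : ℕ, 2 ≤ k → n ≠ a ^ k) (Γ N : Subgroup (GL (Fin n) F))
    (hmin : MinOver Γ (scalars (Fin n) F) N) (habs : ActsAbsolutelyIrreducibly (matrixSet N))
    (hnab : ¬ ⁅N, N⁆ ≤ scalars (Fin n) F) :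
    ∀ M : Subgroup (GL (Fin n) F), scalars (Fin n) F ≤ M → M ≤ N → NormBy N M → M = scalars (Fin n) F ∨ M = N := by
  by_contra hns
  obtain ⟨Q, k, g, hk, hQN, hQZ, hQn, hcomm, hgen, hfac⟩ := exists_commuting_conj Γ _ N
    Cfsg.Agent.Lib.Helper32.AschU.scalars_central hmin hnab hns
  obtain ⟨I, hI⟩ := exists_minIdl hn (spanAlg Q)
  have hinv := idl_inv_of_fac Q N hfac I hI.idl
  obtain ⟨U, hU⟩ := ideal_faith hn N habs.1 (spanAlg Q) (spanAlg_norm N Q hQn) I hI hinv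
  have hc := cen_finrank_of_fac hn Q N hfac habs
  obtain ⟨a, φ, ha, hφ⟩ := dens (spanAlg Q) U hU hc
  exact hpw a k hk (pw hn ha (fun i => (conjA (g i)).comp φ)
    (fun i j hij => conj_comm Q (g i) (g j) (hcomm i j hij) φ hφ) (adjoin_conj_eq_top hn N Q g habs hgen φ hφ))

open Cfsg.Agent.Lib.Helper77.Asch in
theorem main [Fintype F] (q : ℕ) (hF : Fintype.card F = q ^ 2) (h4 : 4 ≤ n)
    (hpp : ∀ r j : ℕ, r.Prime → n ^ 2 ≠ r ^ j) (hpw : ∀ a k : ℕ, 2 ≤ k → n ≠ a ^ k)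
    (H : Subgroup (GL (Fin n) F)) (hH : H ≤ GU n F q) : InGeoV q H ∨ InUnitaryResidualClass H := by
  classical
  have hn : 0 < n := by omega
  have h2n : 2 ≤ n := by omega
  by_cases hirr : ActsIrreducibly (matrixSet H)
  swap
  · exact Or.inl (ured2 q hF H hH hirr)
  obtain ⟨Z, hZ⟩ : ∃ Z, Z = scalars (Fin n) F := ⟨_, rfl⟩
  have hZc : ∀ z ∈ Z, ∀ g : GL (Fin n) F, g * z = z * g := by
    intro z hz g
    exact scalars_central z (hZ ▸ hz) g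
  obtain ⟨Hh, hHh⟩ : ∃ Hh, Hh = H ⊔ Z := ⟨_, rfl⟩
  have hHle : H ≤ Hh := hHh ▸ le_sup_left
  have hZle : Z ≤ Hh := hHh ▸ le_sup_right
  have hsim : Hh ≤ similarityGroup (hermForm n F q) := by
    rw [hHh]
    exact sup_le (hH.trans (Cfsg.Agent.Lib.Helper32.AschU.GU_le_sim q))
      (hZ ▸ Cfsg.Agent.Lib.Helper32.AschU.scalars_le_sim q)
  have hirr' : ActsIrreducibly (matrixSet Hh) := irr_mono (matrixSet_mono hHle) hirr
  have hZlt : Z < Hh := by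
    refine lt_of_le_of_ne hZle (fun h => ?_)
    exact not_irr_of_le_scalars h2n H (hZ ▸ h ▸ hHle) hirr
  obtain ⟨N, hm⟩ := exists_minOver Hh Z hZlt
  suffices InGeoV q Hh ∨ InUnitaryResidualClass H by
    rcases this with h | h
    · exact Or.inl (h.mono hHle)
    · exact Or.inr h
  rcases normal_cases_U q hF hn Hh hsim hirr' N hm.le hm.norm with h | h | hNabs
  · exact Or.inl h
  · exact absurd (hZ ▸ h) (not_le_of_gt hm.lt)
  by_cases hab : ⁅N, N⁆ ≤ Z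
  · exfalso
    obtain ⟨r, j, hr, hj⟩ := Cfsg.Agent.Lib.Helper5.AschC.relIndex_prime_pow Hh Z N hZc hm hab
    have h2 := Cfsg.Agent.Lib.Helper5.AschC.relIndex_eq_sq hn N (hZ ▸ hm.lt.le) (hZ ▸ hab) hNabs
    rw [hZ, h2] at hj
    exact hpp r j hr hj
  · obtain ⟨P, hP⟩ : ∃ P, P = ⁅N, N⁆ := ⟨_, rfl⟩
    obtain ⟨hperf, hPZ⟩ := perfect_core Hh Z N hZc hm hab
    rw [← hP] at hperf hPZ hab
    have hPnorm : NormBy Hh P := hP ▸ normBy_commutator hm.norm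
    have hPN : P ≤ N := hPZ ▸ le_sup_left
    have hPabs : ActsAbsolutelyIrreducibly (matrixSet P) := absIrr_of_sup P (by rw [← hZ, hPZ]; exact hNabs)
    have hsimple := twin hn hpw Hh N (hZ ▸ hm) hNabs (hZ ▸ hP ▸ hab)
    have hnormH : Hh ≤ subgroupNormalizer P := le_normalizer_of_normBy hPnorm
    have hPH : P ≤ H := by
      calc P ≤ ⁅Hh, Hh⁆ := hP ▸ Subgroup.commutator_mono hm.le hm.le
        _ ≤ H := hHh ▸ commutator_sup_le H _ hZc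
    have hPU : P ≤ GU n F q := hPH.trans hH
    by_cases hsub : ∃ F₀ : Subfield F, F₀ ≠ ⊤ ∧ RealisableOver F₀ (matrixSet P)
    · left
      obtain ⟨F₀, hF₀, B, hB⟩ := hsub
      obtain ⟨F₁, r, hle1, hr, hcard⟩ := exists_prime_subfield F₀ hF₀
      have hB1 : ∀ s ∈ matrixSet P, ∀ i j,
          ((B : Matrix (Fin n) (Fin n) F) * s * ((B⁻¹ : GL (Fin n) F) : Matrix (Fin n) (Fin n) F)) i j ∈ F₁ :=
        fun s hs i j => hle1 (hB s hs i j)
      have hle : Hh ≤ subfieldSubgroup F₁ B⁻¹ := hnormH.trans (normalizer_le_subfield hn P hPabs F₁ B hB1)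
      rcases hr.eq_two_or_odd' with h2 | hodd
      · subst h2
        rcases fr2e q hF h2n P hPabs hPU F₁ hcard B hB1 with ⟨hq, hrat⟩ | ⟨ζ, h0, h1, hrat, halt⟩
        · exact Or.inr (Or.inr (Or.inr (Or.inr (Or.inr (Or.inr (Or.inr (Or.inr ⟨hq, F₁, B⁻¹, hcard, hrat, hle⟩)))))))
        · exact Or.inr (Or.inr (Or.inr (Or.inr (Or.inr (Or.inr (Or.inr (Or.inl
            ⟨F₁, B⁻¹, ζ, hcard, h0, h1, hrat, halt, hle⟩)))))))
      · obtain ⟨d, hd, hdJ⟩ := Cfsg.Agent.Lib.Helper32.AschU.fro1 q hF hn P hPabs hPU F₁ B hB1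
        obtain ⟨P', hrat, heq⟩ := Cfsg.Agent.Lib.Helper32.AschU.fro2 q hF hn F₁ r hodd hcard B⁻¹ d hd hdJ
        exact Or.inr (Or.inr (Or.inr (Or.inr (Or.inr (Or.inr (Or.inl
          ⟨F₁, r, P', hr, hodd, hcard, hrat, heq ▸ hle⟩))))))
    right
    subst hZ
    refine ⟨P, ⟨hPH, ?_, hperf, ?_, ?_, ?_, hPabs, ?_⟩, ?_, ?_⟩
    · intro h hh x hx
      exact hPnorm h (hHle hh) x hx
    · exact simple_quot _ N P hPZ hm.lt hsimple
    · exact nonabelian_quot _ P (by rw [hperf]; exact hab)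
    · intro h _ hx
      exact mem_scalars_of_commute hn P hPabs h (centralizes_of_perfect _ P hZc hperf h hx)
    · intro F₀ hF₀ hr
      exact hsub ⟨F₀, hF₀, hr⟩
    · rintro ⟨Q, hQ, hfix⟩
      obtain ⟨M, hM⟩ := Cfsg.Agent.Lib.Helper32.AschU.desc1 q hF P hPU Q hQ hfix
      exact hsub (Cfsg.Agent.Lib.Helper32.AschU.desc2 q hF hn P hPabs M hM)
    · rintro ⟨b, hb, hfix⟩
      obtain ⟨M, hM⟩ := desc1s q hF P hPU b hb hfix
      exact hsub (Cfsg.Agent.Lib.Helper32.AschU.desc2 q hF hn P hPabs M hM)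

end Cfsg.Agent.Lib.Helper47.UC
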